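import Cfsg.Agent.Lang.Weight
import Cfsg.Agent.ChevGrp.Poincare
import Cfsg.Agent.Chev.Facts
import Cfsg.Agent.Chev.RootTab

/-!
The stabiliser in the Weyl group of a sign vector: tables and their checks (owner: helper32).
-/

set_option autoImplicit false

namespace Cfsg.Agent.Lang

open Cfsg.Lie Cfsg.Agent.ChevGrp Matrix
open Cfsg.Agent.Chev (Cert)

variable (D : ChevalleyDatum) (C : Cert)

/-- The value of a sign vector on a root is `1`. -/
def par (e : List ℤ) (s : ℕ) : Bool := decide ((∑ i : Fin D.rank, e.getD i 0 * D.cartan i s) % 2 = 0)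

/-- The same from the packed tables. -/
def parC (e : List ℤ) (s : ℕ) : Bool := decide ((∑ i : Fin D.rank, e.getD i 0 * C.cart i s) % 2 = 0)

/-- The action of a word from the packed tables. -/
def actC (w : List (Fin D.rank)) (s : ℕ) : ℕ := w.foldr (fun i s => C.w i.val s) s

/-- A word for the reflection in the root `act d p_i`. -/
def rWord (g : List (Fin D.rank) × Fin D.rank) : List (Fin D.rank) := g.1 ++ [g.2] ++ g.1.reverse

/-- A product of reflection words. -/
def genWord (v : List (List (Fin D.rank) × Fin D.rank)) : List (Fin D.rank) := (v.map (rWord D)).flatten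

/-- Agreement on the fundamental roots. -/
def sameW (u v : List (Fin D.rank)) : Bool :=
  (List.finRange D.rank).all fun i => actC D C u (D.simple i) == actC D C v (D.simple i)

/-- The part of `P` outside `Pj`. -/
def outside (P Pj : List ℕ) : List ℕ := P.filter fun r => !Pj.contains r

/-- The image of the part of `P` outside `Pj`, as a bit mask. -/
def imgMask (u : List (Fin D.rank)) (P Pj : List ℕ) : ℕ :=
  ((outside P Pj).map fun r => 2 ^ actC D C u r).sum

/-- The number of roots of `P` made negative. -/
def negCount (u : List (Fin D.rank)) (P : List ℕ) : ℕ :=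
  (P.filter fun r => decide (actC D C u r < D.nroots / 2)).length

/-- A level of the chain of subgroups: the roots, the coset representatives with an expression in the
generators, and where a generator sends each representative. -/
structure ChainLevel where
  P : List ℕ
  reps : List (List (Fin D.rank))
  expr : List (List ℕ)
  next : List (List ℕ)

/-- The check of one level over the previous roots `Pj`; the generators in use are `gens.take (m+1)`. -/
def levelOK (gens : List (List (Fin D.rank) × Fin D.rank)) (m : ℕ) (Pj : List ℕ) (L : ChainLevel D) : Bool :=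
  decide L.P.Nodup && decide (Pj ⊆ L.P) &&
  L.P.all (fun r => decide (r < D.nroots) && decide (D.nroots / 2 ≤ r)) &&
  (gens.take m).all (fun g =>
    Pj.all (fun r => Pj.contains (actC D C (rWord D g) r) ||
      Pj.contains (D.nroots - 1 - actC D C (rWord D g) r)) &&
    (outside L.P Pj).all fun r => (outside L.P Pj).contains (actC D C (rWord D g) r)) &&
  decide (L.reps.head? = some []) &&
  ((List.range L.reps.length).all fun a =>
    let u := L.reps.getD a []
    sameW D C u (genWord D ((L.expr.getD a []).filterMap fun l => (gens.take (m + 1))[l]?)) &&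
    Pj.all (fun r => decide (D.nroots / 2 ≤ actC D C u r)) &&
    (List.range (gens.take (m + 1)).length).all fun l =>
      match (gens.take (m + 1))[l]? with
      | none => true
      | some g =>
        let x := (L.next.getD a []).getD l 0
        if x < L.reps.length then sameW D C (rWord D g ++ u) (L.reps.getD x [])
        else match (gens.take m)[x - L.reps.length]? with
          | none => false
          | some g' => sameW D C (rWord D g ++ u) (u ++ rWord D g')) &&
  decide ((L.reps.map fun u => imgMask D C u L.P Pj).Nodup)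

/-- All levels. -/
def levelsOK (gens : List (List (Fin D.rank) × Fin D.rank)) : ℕ → List ℕ → List (ChainLevel D) → Bool
  | _, _, [] => true
  | m, Pj, L :: Ls => levelOK D C gens m Pj L && levelsOK gens (m + 1) L.P Ls

/-- Tables for one class of sign vectors. -/
structure InvTab where
  e : List ℤ
  gens : List (List (Fin D.rank) × Fin D.rank)
  trans : List (List (Fin D.rank))
  edges : List (List ℕ)
  levels : List (ChainLevel D)

/-- The roots of the last level. -/
def lastP : List ℕ → List (ChainLevel D) → List ℕ
  | P, [] => P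
  | _, L :: Ls => lastP L.P Ls

/-- The exponents of the length polynomial, level by level. -/
def expList (L : ChainLevel D) : List ℕ := L.reps.map fun u => negCount D C u L.P

/-- The checks. -/
structure InvTab.Valid (T : InvTab D) : Prop where
  gens_ok : (T.gens.all fun g => parC D C T.e (actC D C g.1 (D.simple g.2)) &&
    (List.range D.nroots).all fun s => parC D C T.e (actC D C (rWord D g) s) == parC D C T.e s) = true
  trans_head : T.trans.head? = some []
  trans_moves : (T.trans.tail.all fun d => (List.range D.nroots).any fun s =>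
    parC D C T.e (actC D C d s) != parC D C T.e s) = true
  edge_ok : ((List.range T.trans.length).all fun a => (List.finRange D.rank).all fun i =>
    let x := (T.edges.getD a []).getD i 0
    if x < T.trans.length then sameW D C (i :: T.trans.getD a []) (T.trans.getD x [])
    else match T.gens[x - T.trans.length]? with
      | none => false
      | some g => sameW D C (i :: T.trans.getD a []) (T.trans.getD a [] ++ rWord D g)) = true
  levels_ok : levelsOK D C T.gens 0 [] T.levels = true
  levels_len : T.levels.length = T.gens.length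
  last_ok : ((List.range D.nroots).all fun s =>
    (lastP D [] T.levels).contains s == (parC D C T.e s && decide (D.nroots / 2 ≤ s))) = true

variable {D} {C} {len : ℕ → ℕ}

/-- The roots are separated by their Cartan integers and the Cartan matrix is unimodular. -/
structure RootData (D : ChevalleyDatum) (C : Cert) : Prop where
  valid : C.Valid D
  unimod : ∃ B : Fin D.rank → Fin D.rank → ℤ, ∀ i j : Fin D.rank,
    ∑ k : Fin D.rank, D.cartan j (D.simple k) * B k i = if j = i then 1 else 0
  inj : ((List.range D.nroots).map fun s => (List.range D.rank).map fun i => C.cart i s).Nodup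

theorem RootData.kap_inj (hD : RootData D C) {s t : ℕ} (hs : s < D.nroots) (ht : t < D.nroots)
    (h : kap D s = kap D t) : s = t := by
  refine List.inj_on_of_nodup_map hD.inj (List.mem_range.2 hs) (List.mem_range.2 ht) ?_
  refine List.map_congr_left fun i hi => ?_
  rw [hD.valid.cart_eq (List.mem_range.1 hi) hs, hD.valid.cart_eq (List.mem_range.1 hi) ht]
  exact congrFun h ⟨i, List.mem_range.1 hi⟩

theorem parC_eq (hD : RootData D C) (e : List ℤ) {s : ℕ} (hs : s < D.nroots) : parC D C e s = par D e s := by
  have h : ∀ i : Fin D.rank, e.getD i 0 * C.cart i s = e.getD i 0 * D.cartan i s := fun i => by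
    rw [hD.valid.cart_eq i.2 hs]
  simp only [parC, par, h]

theorem actC_eq (hD : RootData D C) (hR : RootTable D len) :
    ∀ (w : List (Fin D.rank)) {s : ℕ}, s < D.nroots → actC D C w s = act D w s
  | [], _, _ => rfl
  | i :: w, s, hs => by
    show C.w i.val (actC D C w s) = _
    rw [actC_eq hD hR w hs, hD.valid.w_eq i.2 (hR.act_lt w hs), act_cons]

theorem act_ext (hD : RootData D C) (hR : RootTable D len) {u v : List (Fin D.rank)}
    (h : ∀ i : Fin D.rank, act D u (D.simple i) = act D v (D.simple i)) :
    ∀ s < D.nroots, act D u s = act D v s := by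
  obtain ⟨B, hB⟩ := hD.unimod
  have h3 : (Matrix.of fun i l : Fin D.rank => D.cartan i (D.simple l)) * Matrix.of B = 1 :=
    Matrix.ext fun i j => by rw [Matrix.mul_apply, Matrix.one_apply]; exact hB j i
  have h1 : (wMat D u - wMat D v) * (Matrix.of fun i l : Fin D.rank => D.cartan i (D.simple l)) = 0 := by
    refine Matrix.ext fun i l => ?_
    have h2 : (wMat D u - wMat D v) *ᵥ kap D (D.simple l) = 0 := by
      rw [Matrix.sub_mulVec, ← kap_act hR _ (hR.simple_lt l l.2), ← kap_act hR _ (hR.simple_lt l l.2), h l,
        sub_self]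
    exact congrFun h2 i
  have h4 := congrArg (· * Matrix.of B) h1
  simp only [mul_assoc, h3, mul_one, zero_mul] at h4
  intro s hs
  refine hD.kap_inj (hR.act_lt u hs) (hR.act_lt v hs) ?_
  rw [kap_act hR u hs, kap_act hR v hs, sub_eq_zero.1 h4]

theorem sameW_spec (hD : RootData D C) (hR : RootTable D len) {u v : List (Fin D.rank)}
    (h : sameW D C u v = true) : ∀ s < D.nroots, act D u s = act D v s := by
  refine act_ext hD hR fun i => ?_
  have := List.all_eq_true.1 h i (List.mem_finRange i)
  rwa [beq_iff_eq, actC_eq hD hR u (hR.simple_lt i i.2), actC_eq hD hR v (hR.simple_lt i i.2)] at this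

theorem genWord_cons (g : List (Fin D.rank) × Fin D.rank) (v : List (List (Fin D.rank) × Fin D.rank)) :
    genWord D (g :: v) = rWord D g ++ genWord D v := by
  simp [genWord]

theorem genWord_append (v v' : List (List (Fin D.rank) × Fin D.rank)) :
    genWord D (v ++ v') = genWord D v ++ genWord D v' := by
  simp [genWord]

theorem act_congr_append {a a' b : List (Fin D.rank)} (hR : RootTable D len)
    (h : ∀ s < D.nroots, act D a s = act D a' s) {s : ℕ} (hs : s < D.nroots) :
    act D (a ++ b) s = act D (a' ++ b) s := by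
  rw [act_append, act_append, h _ (hR.act_lt b hs)]

namespace InvTab.Valid

variable {T : InvTab D}

/-- The sign vector is fixed. -/
def Fixes (D : ChevalleyDatum) (e : List ℤ) (w : List (Fin D.rank)) : Prop :=
  ∀ s < D.nroots, par D e (act D w s) = par D e s

theorem par_gen (hv : T.Valid D C) (hD : RootData D C) (hR : RootTable D len)
    {g : List (Fin D.rank) × Fin D.rank} (hg : g ∈ T.gens) :
    par D T.e (act D g.1 (D.simple g.2)) = true ∧ Fixes D T.e (rWord D g) := by
  have h := List.all_eq_true.1 hv.gens_ok g hg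
  rw [Bool.and_eq_true, List.all_eq_true] at h
  have hp := hR.simple_lt g.2 g.2.2
  refine ⟨?_, fun s hs => ?_⟩
  · rw [← parC_eq hD T.e (hR.act_lt g.1 hp), ← actC_eq hD hR g.1 hp]
    exact h.1
  · have := beq_iff_eq.1 (h.2 s (List.mem_range.2 hs))
    rwa [actC_eq hD hR _ hs, parC_eq hD T.e (hR.act_lt _ hs), parC_eq hD T.e hs] at this

theorem fixes_genWord (hv : T.Valid D C) (hD : RootData D C) (hR : RootTable D len) :
    ∀ v, (∀ g ∈ v, g ∈ T.gens) → Fixes D T.e (genWord D v)
  | [], _ => fun s _ => rfl
  | g :: v, h => fun s hs => by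
    rw [genWord_cons, act_append, (hv.par_gen hD hR (h g List.mem_cons_self)).2 _ (hR.act_lt _ hs),
      hv.fixes_genWord hD hR v (fun x hx => h x (List.mem_cons_of_mem _ hx)) s hs]

theorem decomp (hv : T.Valid D C) (hD : RootData D C) (hR : RootTable D len) (w : List (Fin D.rank)) :
    ∃ d ∈ T.trans, ∃ v, (∀ g ∈ v, g ∈ T.gens) ∧ ∀ s < D.nroots, act D w s = act D (d ++ genWord D v) s := by
  induction w with
  | nil =>
    refine ⟨[], List.mem_of_mem_head? hv.trans_head, [], by simp, fun s _ => ?_⟩
    simp [genWord]
  | cons i w ih =>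
    obtain ⟨d, hd, v, hvm, he⟩ := ih
    obtain ⟨a, ha, rfl⟩ := List.mem_iff_getElem.1 hd
    have h := List.all_eq_true.1 (List.all_eq_true.1 hv.edge_ok a (List.mem_range.2 ha)) i (List.mem_finRange i)
    rw [show T.trans[a] = T.trans.getD a [] from (List.getD_eq_getElem _ _ ha).symm] at he
    have he' : ∀ s < D.nroots, act D (i :: w) s = act D (i :: T.trans.getD a [] ++ genWord D v) s := fun s hs => by
      rw [act_cons, List.cons_append, act_cons, he s hs]
    simp only at h
    split_ifs at h with hx
    · refine ⟨T.trans.getD ((T.edges.getD a []).getD i 0) [], ?_, v, hvm, fun s hs => ?_⟩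
      · exact List.getD_eq_getElem T.trans [] hx ▸ List.getElem_mem hx
      · rw [he' s hs, act_congr_append hR (sameW_spec hD hR h) hs]
    · split at h
      · exact Bool.noConfusion h
      · rename_i g hg
        refine ⟨T.trans.getD a [], List.getD_eq_getElem T.trans [] ha ▸ List.getElem_mem ha, g :: v, ?_, fun s hs => ?_⟩
        · intro x hx
          rcases List.mem_cons.1 hx with rfl | hx
          · exact List.mem_of_getElem? hg
          · exact hvm x hx
        · rw [he' s hs, genWord_cons, ← List.append_assoc, act_congr_append hR (sameW_spec hD hR h) hs]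

theorem fixes_iff (hv : T.Valid D C) (hD : RootData D C) (hR : RootTable D len) (w : List (Fin D.rank)) :
    Fixes D T.e w ↔ ∃ v, (∀ g ∈ v, g ∈ T.gens) ∧ ∀ s < D.nroots, act D w s = act D (genWord D v) s := by
  refine ⟨fun h => ?_, fun ⟨v, hvm, he⟩ s hs => by rw [he s hs, hv.fixes_genWord hD hR v hvm s hs]⟩
  obtain ⟨d, hd, v, hvm, he⟩ := hv.decomp hD hR w
  refine ⟨v, hvm, ?_⟩
  have hdnil : d = [] := by
    by_contra hne
    have hmem : d ∈ T.trans.tail := by
      have h0 := hv.trans_head
      rcases hT : T.trans with _ | ⟨x, l⟩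
      · rw [hT] at h0; simp at h0
      · rw [hT] at h0 hd
        simp only [List.head?_cons, Option.some.injEq] at h0
        rcases List.mem_cons.1 hd with rfl | hd
        · exact absurd h0 hne
        · exact hd
    have h1 := List.all_eq_true.1 hv.trans_moves d hmem
    obtain ⟨s, hs, h2⟩ := List.any_eq_true.1 h1
    rw [List.mem_range] at hs
    rw [actC_eq hD hR d hs, parC_eq hD T.e (hR.act_lt d hs), parC_eq hD T.e hs, bne_iff_ne] at h2
    refine h2 ?_
    have hr := hR.act_lt (genWord D v).reverse hs
    have h3 := h _ hr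
    rw [he _ hr, act_append, hR.act_act_reverse (genWord D v) hs] at h3
    have h4 := hv.fixes_genWord hD hR v hvm _ hr
    rw [hR.act_act_reverse (genWord D v) hs] at h4
    exact h3.trans h4.symm
  intro s hs
  rw [he s hs, hdnil, List.nil_append]

end InvTab.Valid

section Chain

/-- The actions of the products of generators. -/
def genSet (hR : RootTable D len) (G : List (List (Fin D.rank) × Fin D.rank)) :
    Set (Fin D.nroots → Fin D.nroots) :=
  {f | ∃ v, (∀ g ∈ v, g ∈ G) ∧ f = hR.actF (genWord D v)}

theorem genSet_finite (hR : RootTable D len) (G : List (List (Fin D.rank) × Fin D.rank)) :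
    (genSet hR G).Finite := Set.toFinite _

/-- The number of roots of `P` made negative. -/
def ellP (D : ChevalleyDatum) (P : List ℕ) (f : Fin D.nroots → Fin D.nroots) : ℕ :=
  (Finset.univ.filter fun r : Fin D.nroots => (r : ℕ) ∈ P ∧ D.IsNegRoot (f r)).card

/-- The length polynomial on `P` of the generated group. -/
noncomputable def chainSum (hR : RootTable D len) (G : List (List (Fin D.rank) × Fin D.rank)) (P : List ℕ)
    {R : Type*} [CommSemiring R] (q : R) : R :=
  ∑ f ∈ (genSet_finite hR G).toFinset, q ^ ellP D P f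

theorem neg_iff_lt (hD : RootData D C) (hR : RootTable D len) {s : ℕ} (hs : s < D.nroots) :
    D.IsNegRoot s ↔ s < D.nroots / 2 := by
  refine ⟨fun h => ?_, fun h => hR.neg_of_not_pos hs fun hp => ?_⟩
  · by_contra hlt
    exact hR.not_pos_and_neg (hD.valid.isPosRoot_iff.2 ⟨not_lt.1 hlt, hs⟩) h
  · exact absurd h (not_lt.2 (hD.valid.isPosRoot_iff.1 hp).1)

/-- Products of generators keep a set of roots kept by each generator. -/
theorem genWord_stable (hR : RootTable D len) (Q : ℕ → Prop)
    {G : List (List (Fin D.rank) × Fin D.rank)}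
    (h : ∀ g ∈ G, ∀ r < D.nroots, Q r → Q (act D (rWord D g) r)) :
    ∀ v, (∀ g ∈ v, g ∈ G) → ∀ r < D.nroots, Q r → Q (act D (genWord D v) r)
  | [], _, r, _, hr => by simpa [genWord, act_nil] using hr
  | g :: v, hv, r, hlt, hr => by
    rw [genWord_cons, act_append]
    exact h g (hv g List.mem_cons_self) _ (hR.act_lt _ hlt)
      (genWord_stable hR Q h v (fun x hx => hv x (List.mem_cons_of_mem _ hx)) r hlt hr)

theorem chainSum_nil (hR : RootTable D len) {R : Type*} [CommSemiring R] (q : R) :
    chainSum hR [] [] q = 1 := by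
  have h : (genSet_finite hR ([] : List (List (Fin D.rank) × Fin D.rank))).toFinset = {hR.actF []} := by
    ext f
    simp only [Set.Finite.mem_toFinset, Finset.mem_singleton, genSet, Set.mem_ofPred_eq]
    refine ⟨?_, fun h => ⟨[], by simp, by simp [h, genWord]⟩⟩
    rintro ⟨v, hv, rfl⟩
    rw [List.eq_nil_iff_forall_not_mem.2 fun g hg => List.not_mem_nil (hv g hg)]
    rfl
  rw [chainSum, h, Finset.sum_singleton, ellP]
  simp

theorem mem_outside {P Pj : List ℕ} {r : ℕ} : r ∈ outside P Pj ↔ r ∈ P ∧ r ∉ Pj := by
  simp [outside]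

theorem chain_step (hD : RootData D C) (hR : RootTable D len)
    {gens : List (List (Fin D.rank) × Fin D.rank)} {m : ℕ} {Pj : List ℕ} {L : ChainLevel D}
    (h : levelOK D C gens m Pj L = true) {R : Type*} [CommSemiring R] (q : R) :
    chainSum hR (gens.take (m + 1)) L.P q =
      ((expList D C L).map fun k => q ^ k).sum * chainSum hR (gens.take m) Pj q := by
  classical
  simp only [levelOK, Bool.and_eq_true, decide_eq_true_eq, List.all_eq_true, List.mem_range, Bool.or_eq_true,
    List.contains_iff_mem] at h
  obtain ⟨⟨⟨⟨⟨⟨hnd, hsub⟩, hP⟩, hgJ⟩, hhead⟩, hreps⟩, hmask⟩ := h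
  have hlt : ∀ r ∈ L.P, r < D.nroots := fun r hr => (hP r hr).1
  have hpos : ∀ r ∈ L.P, D.IsPosRoot r := fun r hr => hD.valid.isPosRoot_iff.2 ⟨(hP r hr).2, (hP r hr).1⟩
  have hJ_roots : ∀ v, (∀ g ∈ v, g ∈ gens.take m) → ∀ r < D.nroots, (r ∈ Pj ∨ D.neg r ∈ Pj) →
      (act D (genWord D v) r ∈ Pj ∨ D.neg (act D (genWord D v) r) ∈ Pj) := by
    refine genWord_stable hR (fun r => r ∈ Pj ∨ D.neg r ∈ Pj) fun g hg r hr hQ => ?_
    have hone : ∀ x, x < D.nroots → x ∈ Pj →
        (act D (rWord D g) x ∈ Pj ∨ D.neg (act D (rWord D g) x) ∈ Pj) := fun x hx hxP => by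
      have := (hgJ g hg).1 x hxP
      rw [actC_eq hD hR _ hx, ← hD.valid.neg_eq (hR.act_lt _ hx)] at this
      exact this
    rcases hQ with hQ | hQ
    · exact hone r hr hQ
    · have := hone _ (hR.neg_lt r hr) hQ
      rw [hR.act_neg _ hr, hR.neg_neg_root (hR.act_lt _ hr)] at this
      exact this.symm
  have hJ_out : ∀ v, (∀ g ∈ v, g ∈ gens.take m) → ∀ r < D.nroots, r ∈ outside L.P Pj →
      act D (genWord D v) r ∈ outside L.P Pj := by
    refine genWord_stable hR (fun r => r ∈ outside L.P Pj) fun g hg r hr hQ => ?_
    have := (hgJ g hg).2 r hQ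
    rwa [actC_eq hD hR _ hr] at this
  have hrep : ∀ a < L.reps.length, ∃ v, (∀ g ∈ v, g ∈ gens.take (m + 1)) ∧
      (∀ s < D.nroots, act D (L.reps.getD a []) s = act D (genWord D v) s) ∧
      ∀ r ∈ Pj, D.IsPosRoot (act D (L.reps.getD a []) r) := fun a ha => by
    obtain ⟨⟨h1, h2⟩, -⟩ := hreps a ha
    refine ⟨_, fun g hg => ?_, sameW_spec hD hR h1, fun r hr => ?_⟩
    · obtain ⟨l, -, e⟩ := List.mem_filterMap.1 hg
      exact List.mem_of_getElem? e
    · have := h2 r hr
      rw [actC_eq hD hR _ (hlt r (hsub hr))] at this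
      exact hD.valid.isPosRoot_iff.2 ⟨this, hR.act_lt _ (hlt r (hsub hr))⟩
  have hclose : ∀ v, (∀ g ∈ v, g ∈ gens.take (m + 1)) → ∃ a < L.reps.length, ∃ v', (∀ g ∈ v', g ∈ gens.take m) ∧
      ∀ s < D.nroots, act D (genWord D v) s = act D (L.reps.getD a [] ++ genWord D v') s := by
    intro v hv
    induction v with
    | nil =>
      rcases hL : L.reps with _ | ⟨x, l⟩
      · rw [hL] at hhead; simp at hhead
      · rw [hL] at hhead
        simp only [List.head?_cons, Option.some.injEq] at hhead
        refine ⟨0, by simp, [], by simp, fun s _ => ?_⟩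
        simp [genWord, hhead]
    | cons g v ih =>
      obtain ⟨a, ha, v', hv', he⟩ := ih fun x hx => hv x (List.mem_cons_of_mem _ hx)
      obtain ⟨l, hl, hgl⟩ := List.mem_iff_getElem.1 (hv g List.mem_cons_self)
      have h3 := (hreps a ha).2 l hl
      rw [List.getElem?_eq_getElem hl, hgl] at h3
      simp only at h3
      have he' : ∀ s < D.nroots, act D (genWord D (g :: v)) s =
          act D ((rWord D g ++ L.reps.getD a []) ++ genWord D v') s := fun s hs => by
        rw [genWord_cons, act_append, he s hs, List.append_assoc, act_append (v := rWord D g)]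
      split_ifs at h3 with hx
      · exact ⟨_, hx, v', hv', fun s hs => by rw [he' s hs, act_congr_append hR (sameW_spec hD hR h3) hs]⟩
      · split at h3
        · exact Bool.noConfusion h3
        · rename_i g' hg'
          refine ⟨a, ha, g' :: v', ?_, fun s hs => ?_⟩
          · intro x hx
            rcases List.mem_cons.1 hx with rfl | hx
            · exact List.mem_of_getElem? hg'
            · exact hv' x hx
          · rw [he' s hs, act_congr_append hR (sameW_spec hD hR h3) hs, genWord_cons, List.append_assoc]
  have hout_lt : ∀ r ∈ outside L.P Pj, r < D.nroots := fun r hr => hlt r (mem_outside.1 hr).1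
  have himg : ∀ v, (∀ g ∈ v, g ∈ gens.take m) → ∀ u : List (Fin D.rank),
      (outside L.P Pj).toFinset.image (act D (u ++ genWord D v)) =
        (outside L.P Pj).toFinset.image (act D u) := by
    intro v hv u
    have e : (outside L.P Pj).toFinset.image (act D (genWord D v)) = (outside L.P Pj).toFinset := by
      refine Finset.eq_of_subset_of_card_le (fun x hx => ?_) ?_
      · obtain ⟨r, hr, rfl⟩ := Finset.mem_image.1 hx
        rw [List.mem_toFinset] at hr ⊢
        exact hJ_out v hv r (hout_lt r hr) hr
      · rw [Finset.card_image_of_injOn]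
        intro x hx y hy e
        rw [Finset.mem_coe, List.mem_toFinset] at hx hy
        exact hR.act_inj _ (hout_lt x hx) (hout_lt y hy) e
    conv_rhs => rw [← e, Finset.image_image]
    exact Finset.image_congr fun r _ => act_append D u (genWord D v) r
  have hmask' : ∀ u : List (Fin D.rank), imgMask D C u L.P Pj =
      ∑ x ∈ (outside L.P Pj).toFinset.image (act D u), 2 ^ x := by
    intro u
    rw [Finset.sum_image fun x hx y hy e => by
      rw [Finset.mem_coe, List.mem_toFinset] at hx hy
      exact hR.act_inj _ (hout_lt x hx) (hout_lt y hy) e]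
    rw [List.sum_toFinset _ (show (outside L.P Pj).Nodup from hnd.filter _), imgMask]
    refine congrArg List.sum (List.map_congr_left fun r hr => ?_)
    rw [actC_eq hD hR u (hout_lt r hr)]
  have hmem : ∀ G f, f ∈ (genSet_finite hR G).toFinset ↔ ∃ v, (∀ g ∈ v, g ∈ G) ∧ f = hR.actF (genWord D v) :=
    fun G f => Set.Finite.mem_toFinset _
  let Φ : Fin L.reps.length × (Fin D.nroots → Fin D.nroots) → (Fin D.nroots → Fin D.nroots) :=
    fun p => hR.actF (L.reps.getD p.1 []) ∘ p.2
  have hΦ : ∀ a v, Φ (a, hR.actF (genWord D v)) = hR.actF (L.reps.getD (a : ℕ) [] ++ genWord D v) :=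
    fun a v => funext fun s => Fin.ext (act_append D _ _ _).symm
  have hset : (genSet_finite hR (gens.take (m + 1))).toFinset =
      (Finset.univ ×ˢ (genSet_finite hR (gens.take m)).toFinset).image Φ := by
    ext f
    simp only [Finset.mem_image, Finset.mem_product, Finset.mem_univ, true_and, hmem]
    constructor
    · rintro ⟨v, hv, rfl⟩
      obtain ⟨a, ha, v', hv', he⟩ := hclose v hv
      exact ⟨(⟨a, ha⟩, hR.actF (genWord D v')), ⟨v', hv', rfl⟩,
        by rw [hΦ]; exact (hR.mem_actF_iff.2 he).symm⟩
    · rintro ⟨⟨a, f'⟩, ⟨v', hv', rfl⟩, rfl⟩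
      obtain ⟨va, hva, hea, -⟩ := hrep a a.2
      refine ⟨va ++ v', fun g hg => ?_, ?_⟩
      · rcases List.mem_append.1 hg with hg | hg
        · exact hva g hg
        · exact (List.take_subset_take_left _ (Nat.le_succ m)) (hv' g hg)
      · rw [hΦ, genWord_append]
        exact hR.mem_actF_iff.2 fun r hr => act_congr_append hR hea hr
  rw [chainSum, hset, Finset.sum_image, chainSum, Finset.sum_product]
  · have hexp : ((expList D C L).map fun k => q ^ k).sum =
        ∑ a : Fin L.reps.length, q ^ negCount D C (L.reps.getD a []) L.P := by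
      rw [show (expList D C L).map (fun k => q ^ k) =
          List.ofFn fun a : Fin L.reps.length => q ^ negCount D C (L.reps.getD a []) L.P from
        List.ext_getElem (by simp [expList]) (fun i h1 h2 => by simp [expList]),
        List.sum_ofFn]
    rw [hexp, Finset.sum_mul]
    refine Finset.sum_congr rfl fun a _ => ?_
    rw [Finset.mul_sum]
    refine Finset.sum_congr rfl fun f hf => ?_
    rw [← pow_add]
    congr 1
    obtain ⟨v', hv', rfl⟩ := (hmem _ f).1 hf
    rw [hΦ]
    obtain ⟨-, -, -, hupos⟩ := hrep a a.2
    obtain ⟨u, hudef⟩ : ∃ u, u = L.reps.getD (a : ℕ) [] := ⟨_, rfl⟩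
    rw [← hudef] at hupos ⊢
    have hnegJ : ∀ r ∈ Pj, (D.IsNegRoot (act D (u ++ genWord D v') r) ↔ D.IsNegRoot (act D (genWord D v') r)) := by
      intro r hr
      have hrlt := hlt r (hsub hr)
      have hylt := hR.act_lt (genWord D v') hrlt
      rw [act_append]
      rcases hJ_roots v' hv' r hrlt (Or.inl hr) with hy | hy
      · exact iff_of_false (fun hn => hR.not_pos_and_neg (hupos _ hy) hn)
          (fun hn => hR.not_pos_and_neg (hpos _ (hsub hy)) hn)
      · refine iff_of_true ?_ ((hR.pos_neg_iff hylt).1 (hpos _ (hsub hy)))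
        have := hupos _ hy
        rw [hR.act_neg u hylt] at this
        exact (hR.pos_neg_iff (hR.act_lt u hylt)).1 this
    have hneg_count : negCount D C u L.P =
        ((outside L.P Pj).toFinset.filter fun r => D.IsNegRoot (act D u r)).card := by
      rw [negCount, ← List.toFinset_card_of_nodup (hnd.filter _)]
      congr 1
      ext r
      simp only [List.mem_toFinset, List.mem_filter, decide_eq_true_eq, Finset.mem_filter, mem_outside]
      constructor
      · rintro ⟨hr, hu⟩
        rw [actC_eq hD hR u (hlt r hr)] at hu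
        have hneg := (neg_iff_lt hD hR (hR.act_lt u (hlt r hr))).2 hu
        exact ⟨⟨hr, fun hj => hR.not_pos_and_neg (hupos r hj) hneg⟩, hneg⟩
      · rintro ⟨⟨hr, -⟩, hu⟩
        rw [actC_eq hD hR u (hlt r hr)]
        exact ⟨hr, (neg_iff_lt hD hR (hR.act_lt u (hlt r hr))).1 hu⟩
    rw [hneg_count, ellP, ellP, ← Finset.card_map ⟨Fin.val, Fin.val_injective⟩,
      ← Finset.card_map (s := Finset.univ.filter fun r : Fin D.nroots =>
        (r : ℕ) ∈ Pj ∧ D.IsNegRoot (hR.actF (genWord D v') r)) ⟨Fin.val, Fin.val_injective⟩]
    rw [← Finset.card_image_of_injOn (f := act D (genWord D v').reverse)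
      (s := (outside L.P Pj).toFinset.filter fun r => D.IsNegRoot (act D u r)) (fun x hx y hy e => by
        rw [Finset.mem_coe, Finset.mem_filter, List.mem_toFinset] at hx hy
        exact hR.act_inj _ (hout_lt x hx.1) (hout_lt y hy.1) e), ← Finset.card_union_of_disjoint]
    · congr 1
      ext r
      simp only [Finset.mem_map, Finset.mem_filter, Finset.mem_univ, true_and, Function.Embedding.coeFn_mk,
        Finset.mem_union, Finset.mem_image, List.mem_toFinset]
      simp only [RootTable.actF]
      constructor
      · rintro ⟨x, hx, rfl⟩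
        obtain ⟨hxP, hxn⟩ := hx
        by_cases hxJ : (x : ℕ) ∈ Pj
        · exact Or.inr ⟨x, ⟨hxJ, (hnegJ _ hxJ).1 hxn⟩, rfl⟩
        · refine Or.inl ⟨act D (genWord D v') x, ⟨hJ_out v' hv' x x.2 (mem_outside.2 ⟨hxP, hxJ⟩), ?_⟩,
            hR.act_reverse_act _ x.2⟩
          rwa [← act_append]
      · rintro (⟨y, ⟨hy, hyn⟩, rfl⟩ | ⟨x, ⟨hxJ, hxn⟩, rfl⟩)
        · have hylt := hout_lt y hy
          refine ⟨⟨_, hR.act_lt _ hylt⟩, ⟨?_, ?_⟩, rfl⟩
          · obtain ⟨z, hz, hzy⟩ : ∃ z ∈ outside L.P Pj, act D (genWord D v') z = y := by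
              have e := himg v' hv' []
              rw [List.nil_append] at e
              have hy' : y ∈ (outside L.P Pj).toFinset.image (act D (genWord D v')) := by
                rw [e]
                exact Finset.mem_image.2 ⟨y, List.mem_toFinset.2 hy, act_nil D y⟩
              obtain ⟨z, hz, e'⟩ := Finset.mem_image.1 hy'
              exact ⟨z, List.mem_toFinset.1 hz, e'⟩
            show act D (genWord D v').reverse y ∈ L.P
            rw [← hzy, hR.act_reverse_act _ (hout_lt z hz)]
            exact (mem_outside.1 hz).1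
          · show D.IsNegRoot (act D (u ++ genWord D v') (act D (genWord D v').reverse y))
            rwa [act_append, hR.act_act_reverse _ hylt]
        · exact ⟨x, ⟨hsub hxJ, (hnegJ _ hxJ).2 hxn⟩, rfl⟩
    · rw [Finset.disjoint_left]
      intro r hr hr'
      obtain ⟨y, hy, rfl⟩ := Finset.mem_image.1 hr
      rw [Finset.mem_filter, List.mem_toFinset] at hy
      obtain ⟨x, hx, e⟩ := Finset.mem_map.1 hr'
      rw [Finset.mem_filter] at hx
      have hx' : (x : ℕ) = act D (genWord D v').reverse y := e
      obtain ⟨z, hz, hzy⟩ : ∃ z ∈ outside L.P Pj, act D (genWord D v') z = y := by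
        have e := himg v' hv' []
        rw [List.nil_append] at e
        have hy' : y ∈ (outside L.P Pj).toFinset.image (act D (genWord D v')) := by
          rw [e]
          exact Finset.mem_image.2 ⟨y, List.mem_toFinset.2 hy.1, act_nil D y⟩
        obtain ⟨z, hz, e'⟩ := Finset.mem_image.1 hy'
        exact ⟨z, List.mem_toFinset.1 hz, e'⟩
      rw [← hzy, hR.act_reverse_act _ (hout_lt z hz)] at hx'
      exact (mem_outside.1 hz).2 (hx' ▸ hx.2.1)
  · rintro ⟨a, f⟩ hf ⟨b, f'⟩ hf' e
    simp only [Finset.mem_coe, Finset.mem_product, Finset.mem_univ, true_and, hmem] at hf hf'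
    obtain ⟨v, hv, rfl⟩ := hf
    obtain ⟨v', hv', rfl⟩ := hf'
    rw [hΦ, hΦ] at e
    have e1 := hR.mem_actF_iff.1 e
    have hab : a = b := by
      have e2 : imgMask D C (L.reps.getD (a : ℕ) []) L.P Pj = imgMask D C (L.reps.getD (b : ℕ) []) L.P Pj := by
        rw [hmask', hmask', ← himg v hv (L.reps.getD (a : ℕ) []), ← himg v' hv' (L.reps.getD (b : ℕ) [])]
        congr 1
        exact Finset.image_congr fun r hr => e1 r (hout_lt r (List.mem_toFinset.1 hr))
      refine Fin.ext ?_
      rw [List.getD_eq_getElem _ _ a.2, List.getD_eq_getElem _ _ b.2] at e2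
      exact (hmask.getElem_inj_iff (hi := by simp) (hj := by simp)).1
        (by rw [List.getElem_map, List.getElem_map]; exact e2)
    subst hab
    refine Prod.ext rfl (funext fun s => Fin.ext ?_)
    have e2 := e1 s s.2
    rw [act_append, act_append] at e2
    exact hR.act_inj _ (hR.act_lt _ s.2) (hR.act_lt _ s.2) e2

theorem chain_sum (hD : RootData D C) (hR : RootTable D len)
    (gens : List (List (Fin D.rank) × Fin D.rank)) {R : Type*} [CommSemiring R] (q : R) :
    ∀ (Ls : List (ChainLevel D)) (m : ℕ) (Pj : List ℕ), levelsOK D C gens m Pj Ls = true →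
      chainSum hR (gens.take (m + Ls.length)) (lastP D Pj Ls) q =
        (Ls.map fun L => ((expList D C L).map fun k => q ^ k).sum).prod * chainSum hR (gens.take m) Pj q
  | [], m, Pj, _ => by simp [lastP]
  | L :: Ls, m, Pj, h => by
    simp only [levelsOK, Bool.and_eq_true] at h
    have e := chain_sum hD hR gens q Ls (m + 1) L.P h.2
    rw [List.length_cons, show m + (Ls.length + 1) = m + 1 + Ls.length by omega, lastP, e,
      chain_step hD hR h.1 q, List.map_cons, List.prod_cons]
    ring

/-- The length polynomial of the stabiliser on the positive roots with trivial value. -/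
theorem InvTab.Valid.stab_sum {T : InvTab D} (hv : T.Valid D C) (hD : RootData D C) (hR : RootTable D len)
    {R : Type*} [CommSemiring R] (q : R) :
    chainSum hR T.gens (lastP D [] T.levels) q =
      (T.levels.map fun L => ((expList D C L).map fun k => q ^ k).sum).prod := by
  have h := chain_sum hD hR T.gens q T.levels 0 [] hv.levels_ok
  rw [Nat.zero_add, hv.levels_len, List.take_length, List.take_zero, chainSum_nil, mul_one] at h
  exact h

theorem InvTab.Valid.mem_last {T : InvTab D} (hv : T.Valid D C) (hD : RootData D C) {s : ℕ}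
    (hs : s < D.nroots) : s ∈ lastP D [] T.levels ↔ par D T.e s = true ∧ D.IsPosRoot s := by
  have h := beq_iff_eq.1 (List.all_eq_true.1 hv.last_ok s (List.mem_range.2 hs))
  rw [← List.contains_iff_mem, h, Bool.and_eq_true, parC_eq hD T.e hs, decide_eq_true_eq,
    hD.valid.isPosRoot_iff]
  exact ⟨fun h => ⟨h.1, h.2, hs⟩, fun h => ⟨h.1, h.2.1⟩⟩

end Chain

end Cfsg.Agent.Lang
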