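import Cfsg.Agent.Lang.Torus
import Cfsg.Agent.Lang.InvTab

/-!
The centralizer of an involution of the diagonal subgroup: generators, normal form, Lang's theorem for it,
its order over a finite field (owner: helper32).
-/

set_option autoImplicit false

namespace Cfsg.Agent.Lang

open Cfsg.Lie Cfsg.Agent.ChevGrp Matrix
open Cfsg.Agent.Chev (Cert)
open InvTab.Valid (Fixes)

variable {D : ChevalleyDatum} {C : Cert} {len : ℕ → ℕ}

/-- The roots on which the sign vector is trivial. -/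
def psi (D : ChevalleyDatum) (e : List ℤ) : Set ℕ := {s | s < D.nroots ∧ par D e s = true}

/-- The sign vector as torus parameters. -/
def sgn (D : ChevalleyDatum) (K : Type*) [Field K] (e : List ℤ) : Fin D.rank → Kˣ :=
  fun i => (-1) ^ e.getD i 0

theorem closed_inter_psi (hR : RootTable D len) (e : List ℤ) {φ : (Fin D.rank → ℤ) →+ ℤ} {T : Set ℕ}
    (hT : UClosed D len φ T) : UClosed D len φ (T ∩ psi D e) := by
  refine hT.subset_closed Set.inter_subset_left fun r hr s hs hne c hc => ?_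
  obtain ⟨hlt, -, -, hv⟩ := hR.commTerms_vec r hr.2.1 s hs.2.1 hne (hT.ne_neg hR hr.1 hs.1) c hc
  refine ⟨hT.closed r hr.1 s hs.1 hne c hc, hlt, ?_⟩
  have h1 := hr.2.2
  have h2 := hs.2.2
  simp only [par, decide_eq_true_eq] at h1 h2 ⊢
  have e1 : ∀ i : Fin D.rank, e.getD i 0 * D.cartan i c.1 =
      (c.2.2.1 : ℤ) * (e.getD i 0 * D.cartan i r) + (c.2.2.2 : ℤ) * (e.getD i 0 * D.cartan i s) := fun i => by
    rw [hR.cartan_lin i.2 hr.2.1 hs.2.1 hlt hv]
    ring
  simp only [e1, Finset.sum_add_distrib, ← Finset.mul_sum]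
  rw [← Int.dvd_iff_emod_eq_zero] at h1 h2 ⊢
  exact dvd_add (h1.mul_left _) (h2.mul_left _)

variable {K : Type*} [Field K]

theorem chr_sgn (e : List ℤ) (h2 : (2 : K) ≠ 0) (v : Fin D.rank → ℤ) :
    chr v (sgn D K e) = 1 ↔ (∑ i : Fin D.rank, e.getD i 0 * v i) % 2 = 0 := by
  have h : chr v (sgn D K e) = (-1 : Kˣ) ^ (∑ i : Fin D.rank, e.getD i 0 * v i) := by
    rw [chr, zpow_sum_finset]
    exact Finset.prod_congr rfl fun i _ => by rw [sgn, ← _root_.zpow_mul]
  rw [h, ← Int.even_iff, neg_one_zpow_eq_ite]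
  split_ifs with he
  · exact iff_of_true rfl he
  · refine iff_of_false (fun e1 => h2 ?_) he
    have := congrArg Units.val e1
    simp only [Units.val_neg, Units.val_one] at this
    linear_combination -this

theorem chr_sgn_iff (e : List ℤ) (h2 : (2 : K) ≠ 0) {s : ℕ} (hs : s < D.nroots) :
    chr (kap D s) (sgn D K e) = 1 ↔ s ∈ psi D e := by
  rw [chr_sgn e h2]
  simp [psi, par, kap, hs]

theorem chr_sgn_eq (e : List ℤ) (h2 : (2 : K) ≠ 0) {s t : ℕ} (hs : s < D.nroots) (ht : t < D.nroots) :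
    chr (kap D s) (sgn D K e) = chr (kap D t) (sgn D K e) ↔ par D e s = par D e t := by
  have hsq : ∀ r, chr (kap D r) (sgn D K e) = 1 ∨ chr (kap D r) (sgn D K e) = -1 := fun r => by
    have : chr (kap D r) (sgn D K e) ^ 2 = 1 := by
      rw [← chr_npow, show sgn D K e ^ 2 = (1 : Fin D.rank → Kˣ) from funext fun i => by
        show ((-1 : Kˣ) ^ e.getD i 0) ^ 2 = 1
        rw [← zpow_natCast, ← _root_.zpow_mul, mul_comm, _root_.zpow_mul]
        simp]
      simp [chr]
    rcases (sq_eq_one_iff.1 (show ((chr (kap D r) (sgn D K e) : Kˣ) : K) ^ 2 = 1 by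
      rw [← Units.val_pow_eq_pow_val, this, Units.val_one])) with h | h
    · exact Or.inl (Units.ext h)
    · exact Or.inr (Units.ext (by simpa using h))
  have hm : (-1 : Kˣ) ≠ 1 := fun h => h2 (by
    have := congrArg Units.val h
    simp only [Units.val_neg, Units.val_one] at this
    linear_combination -this)
  have hs' := chr_sgn_iff (K := K) e h2 hs
  have ht' := chr_sgn_iff (K := K) e h2 ht
  simp only [psi, Set.mem_ofPred_eq, hs, ht, true_and] at hs' ht'
  rw [Bool.eq_iff_iff, ← hs', ← ht']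
  rcases hsq s with a | a <;> rcases hsq t with b | b <;> simp [a, b, hm, hm.symm]

/-- The involution of the diagonal subgroup. -/
noncomputable def hInv (hS : Rules D K) (hR : RootTable D len) (e : List ℤ) : GL D.Idx K :=
  tauC hS hR (sgn D K e)

theorem x_comm_hInv (hS : Rules D K) (hR : RootTable D len) (e : List ℤ) (h2 : (2 : K) ≠ 0) {r : ℕ}
    (hr : r ∈ psi D e) (t : K) :
    hInv hS hR e * (glSys hS).x r t = (glSys hS).x r t * hInv hS hR e := by
  rw [hInv, tauC_x hS hR hr.1, (chr_sgn_iff e h2 hr.1).2 hr, Units.val_one, one_mul]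

theorem US_comm_hInv (hS : Rules D K) (hR : RootTable D len) (e : List ℤ) (h2 : (2 : K) ≠ 0) {y : GL D.Idx K}
    (hy : y ∈ (glSys hS).US (psi D e)) : hInv hS hR e * y = y * hInv hS hR e := by
  have hle : (glSys hS).US (psi D e) ≤ Subgroup.centralizer ({hInv hS hR e} : Set (GL D.Idx K)) := by
    rw [Sys.US, Subgroup.closure_le]
    rintro _ ⟨r, hr, t, rfl⟩
    rw [SetLike.mem_coe, Subgroup.mem_centralizer_singleton_iff]
    exact (x_comm_hInv hS hR e h2 hr t).symm
  exact (Subgroup.mem_centralizer_singleton_iff.1 (hle hy)).symm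

/-- An element of `U_T` commuting with the involution lies in `U_{T ∩ Ψ}`. -/
theorem mem_US_of_comm (hS : Rules D K) (hR : RootTable D len) (e : List ℤ) (h2 : (2 : K) ≠ 0)
    {φ : (Fin D.rank → ℤ) →+ ℤ} {T : Set ℕ} (hT : UClosed D len φ T) {u : GL D.Idx K}
    (hu : u ∈ (glSys hS).US T) (hc : hInv hS hR e * u * (hInv hS hR e)⁻¹ = u) :
    u ∈ (glSys hS).US (T ∩ psi D e) := by
  obtain ⟨L, hL⟩ := hT.exists_enum
  obtain ⟨t, rfl⟩ := (glSys hS).exists_coef hR hT hL hu
  have hlt : ∀ r ∈ L, r < D.nroots := fun r hr => hT.lt r ((hL.2 r).1 hr)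
  rw [hInv, conj_P hS hR _ L hlt t] at hc
  have ht := (glSys hS).coef_unique hR hT hL (congrArg (glSys hS).θ hc)
  refine (glSys hS).P_mem hlt fun r hr h0 => ?_
  have hrT := (hL.2 r).1 hr
  have h1 : ((chr (kap D r) (sgn D K e) : Kˣ) : K) * t r = t r := ht r hrT
  exact ⟨hrT, (chr_sgn_iff e h2 (hlt r hr)).1 (Units.ext ((mul_eq_right₀ h0).1 h1))⟩

theorem fixes_iff_comm (hD : RootData D C) (hS : Rules D K) (hR : RootTable D len) (e : List ℤ)
    (h2 : (2 : K) ≠ 0) (w : List (Fin D.rank)) :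
    (glSys hS).nW w * hInv hS hR e = hInv hS hR e * (glSys hS).nW w ↔ Fixes D e w := by
  constructor
  · intro h s hs
    exact (chr_sgn_eq e h2 (hR.act_lt w hs) hs).1 (chr_of_conj hS hR w h hs)
  · intro h
    obtain ⟨d, hd⟩ := exists_tauC hS hR
      ((glSys hS).nW_conj_Hbar hS hR w (tauC_mem hS hR (sgn D K e)))
    have e1 : (glSys hS).nW w * tauC hS hR (sgn D K e) = tauC hS hR d * (glSys hS).nW w := by
      rw [hd, inv_mul_cancel_right]
    suffices d * (sgn D K e)⁻¹ = 1 by rw [mul_inv_eq_one] at this; rw [hInv, e1, this]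
    have hmem : d * (sgn D K e)⁻¹ ∈ rootKer D K := by
      rw [mem_rootKer_iff]
      intro l
      obtain ⟨s, hs, hact⟩ := act_surj hR w (hR.simple_lt l l.2)
      rw [← hact, chr_mul, chr_inv, chr_of_conj hS hR w e1 hs,
        (chr_sgn_eq e h2 (hR.act_lt w hs) hs).2 (h s hs), mul_inv_cancel]
    rwa [Chev.FieldFix.rootKer_eq_bot hD.unimod, Subgroup.mem_bot] at hmem

/-- The normal form of an element commuting with the involution. -/
theorem cent_NF (hD : RootData D C) (hS : Rules D K) (hR : RootTable D len) (e : List ℤ) (h2 : (2 : K) ≠ 0)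
    {y : GL D.Idx K} (hy : y ∈ (glSys hS).Gbar) (hc : hInv hS hR e * y = y * hInv hS hR e) :
    ∃ u ∈ (glSys hS).US (posSet D ∩ psi D e), ∃ h ∈ (glSys hS).Hbar, ∃ w : List (Fin D.rank),
      Reduced D w ∧ Fixes D e w ∧ ∃ v ∈ (glSys hS).US (invSet D w ∩ psi D e),
        y = u * h * (glSys hS).nW w * v := by
  obtain ⟨b, hb, w, hwred, v, hv, rfl⟩ := (glSys hS).mem_NF hS hR hy
  obtain ⟨u, hu, h₁, hh₁, rfl⟩ := ((glSys hS).mem_Bbar hS hR).1 hb
  obtain ⟨c, hcdef⟩ : ∃ c, c = sgn D K e := ⟨_, rfl⟩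
  obtain ⟨h, hhdef⟩ : ∃ h, h = tauC hS hR c := ⟨_, rfl⟩
  have hh : h ∈ (glSys hS).Hbar := hhdef ▸ tauC_mem hS hR c
  have hh0 : hInv hS hR e = h := by rw [hhdef, hcdef]; rfl
  rw [hh0] at hc
  obtain ⟨n, hndef⟩ : ∃ n, n = (glSys hS).nW w := ⟨_, rfl⟩
  have hk : n * h⁻¹ * n⁻¹ ∈ (glSys hS).Hbar := hndef ▸ (glSys hS).nW_conj_Hbar hS hR w (inv_mem hh)
  have hu' : h * u * h⁻¹ ∈ (glSys hS).Ubar := hhdef ▸ conj_US hS hR c (fun r hr => hr.1) hu
  have hv' : h * v * h⁻¹ ∈ (glSys hS).US (invSet D w) := hhdef ▸ conj_US hS hR c (fun r hr => hr.1.1) hv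
  have hh' : h * h₁ * (n * h⁻¹ * n⁻¹) ∈ (glSys hS).Hbar := mul_mem (mul_mem hh hh₁) hk
  have e1 : (h * u * h⁻¹) * (h * h₁ * (n * h⁻¹ * n⁻¹)) * n * (h * v * h⁻¹) = u * h₁ * n * v := by
    calc _ = h * (u * h₁ * n * v) * h⁻¹ := by simp [mul_assoc]
      _ = _ := by rw [hndef, hc, mul_inv_cancel_right]
  rw [hndef] at e1 hh'
  obtain ⟨e2, e3⟩ := ((glSys hS).bruhat_unique hS hR
    (mul_mem ((glSys hS).Ubar_le_Bbar hu') ((glSys hS).Hbar_le_Bbar hh')) hb hv' hv e1).2 rfl
  obtain ⟨e4, e5⟩ := (glSys hS).Bbar_decomp_unique hS hR hu' hu hh' hh₁ e2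
  refine ⟨u, mem_US_of_comm hS hR e h2 hR.posSet_closed hu (hh0.symm ▸ e4), h₁, hh₁, w, hwred, ?_, v,
    mem_US_of_comm hS hR e h2 (hR.inv_closed w) hv (hh0.symm ▸ e3), rfl⟩
  refine (fixes_iff_comm hD hS hR e h2 w).1 ?_
  rw [hh0]
  have hcomm := (glSys hS).Hbar_comm hS hR (glSys_HMul hS hR) h hh h₁ hh₁
  rw [hcomm, mul_assoc, mul_eq_left] at e5
  have e6 : h * ((glSys hS).nW w * h⁻¹ * ((glSys hS).nW w)⁻¹) = 1 := e5
  rw [mul_eq_one_iff_eq_inv, _root_.mul_inv_rev, _root_.mul_inv_rev, inv_inv, inv_inv, ← mul_assoc,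
    eq_mul_inv_iff_mul_eq] at e6
  exact e6.symm

theorem nW_genWord_mem {T : InvTab D} (hv : T.Valid D C) (hD : RootData D C) (hS : Rules D K)
    (hR : RootTable D len) : ∀ v, (∀ g ∈ v, g ∈ T.gens) →
    (glSys hS).nW (genWord D v) ∈ (glSys hS).US (psi D T.e) ⊔ (glSys hS).Hbar
  | [], _ => by
    rw [show genWord D ([] : List (List (Fin D.rank) × Fin D.rank)) = [] from rfl, Sys.nW_nil]
    exact one_mem _
  | g :: v, hm => by
    rw [genWord_cons, (glSys hS).nW_append]
    refine mul_mem ?_ (nW_genWord_mem hv hD hS hR v fun x hx => hm x (List.mem_cons_of_mem _ hx))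
    have hpar := (hv.par_gen hD hR (hm g List.mem_cons_self)).1
    have hp := hR.simple_lt g.2 g.2.2
    obtain ⟨a, ha, hga⟩ := (glSys hS).conjP_nW hS hR g.1
    have e1 := Sys.ConjP.nEl hR ha hga hp 1
    have hb : act D g.1 (D.simple g.2) ∈ psi D T.e := ⟨hR.act_lt g.1 hp, hpar⟩
    have hnb : D.neg (act D g.1 (D.simple g.2)) ∈ psi D T.e := by
      refine ⟨hR.neg_lt _ hb.1, ?_⟩
      have h1 := hb.2
      simp only [par, decide_eq_true_eq] at h1 ⊢
      have hn : ∀ i : Fin D.rank, T.e.getD i 0 * D.cartan i (D.neg (act D g.1 (D.simple g.2))) =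
          -(T.e.getD i 0 * D.cartan i (act D g.1 (D.simple g.2))) := fun i => by
        rw [hR.cartan_neg i.2 hb.1]; ring
      simp only [hn, Finset.sum_neg_distrib]
      omega
    have e2 : (glSys hS).nW (rWord D g) = (glSys hS).nW g.1 * (glSys hS).nI g.2 * ((glSys hS).nW g.1)⁻¹ *
        ((glSys hS).nW g.1 * (glSys hS).nW g.1.reverse) := by
      rw [rWord, (glSys hS).nW_append, (glSys hS).nW_append, (glSys hS).nW_singleton]
      simp [mul_assoc]
    rw [e2]
    refine mul_mem (Subgroup.mem_sup_left ?_) (Subgroup.mem_sup_right ((glSys hS).nW_reverse_mem hS hR g.1))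
    rw [Sys.nI, e1]
    exact mul_mem (mul_mem ((glSys hS).x_mem_US hb _) ((glSys hS).x_mem_US hnb _)) ((glSys hS).x_mem_US hb _)

theorem nW_fixes_mem {T : InvTab D} (hv : T.Valid D C) (hD : RootData D C) (hS : Rules D K)
    (hR : RootTable D len) {w : List (Fin D.rank)} (hw : Fixes D T.e w) :
    (glSys hS).nW w ∈ (glSys hS).US (psi D T.e) ⊔ (glSys hS).Hbar := by
  obtain ⟨v, hvm, he⟩ := (hv.fixes_iff hD hR w).1 hw
  obtain ⟨k, hk, ek⟩ := (glSys hS).nW_congr hS hR he
  rw [ek]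
  exact mul_mem (Subgroup.mem_sup_right hk) (nW_genWord_mem hv hD hS hR v hvm)

section Bound

/-- The exponents of the coroot of a generator. -/
def corVec (g : List (Fin D.rank) × Fin D.rank) : Fin D.rank → ℤ := fun j => wMat D g.1.reverse g.2 j

/-- A product of at most `n` root elements with roots in `Ψ`. -/
def InPsi (hS : Rules D K) (e : List ℤ) (n : ℕ) (g : GL D.Idx K) : Prop :=
  ∃ ts : List (Fin D.nroots × K), ts.length ≤ n ∧ (∀ p ∈ ts, (p.1 : ℕ) ∈ psi D e) ∧
    g = (ts.map fun p => (glSys hS).x p.1 p.2).prod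

theorem InPsi.mul {hS : Rules D K} {e : List ℤ} {m n : ℕ} {g h : GL D.Idx K} (hg : InPsi hS e m g)
    (hh : InPsi hS e n h) : InPsi hS e (m + n) (g * h) := by
  obtain ⟨a, ha, hap, rfl⟩ := hg
  obtain ⟨b, hb, hbp, rfl⟩ := hh
  refine ⟨a ++ b, by rw [List.length_append]; omega, ?_, by rw [List.map_append, List.prod_append]⟩
  intro p hp
  rcases List.mem_append.1 hp with h | h
  exacts [hap p h, hbp p h]

theorem InPsi.mono {hS : Rules D K} {e : List ℤ} {m n : ℕ} {g : GL D.Idx K} (hg : InPsi hS e m g)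
    (h : m ≤ n) : InPsi hS e n g := by
  obtain ⟨a, ha, hap, rfl⟩ := hg
  exact ⟨a, ha.trans h, hap, rfl⟩

theorem InPsi.mem {hS : Rules D K} {e : List ℤ} {n : ℕ} {g : GL D.Idx K} (hg : InPsi hS e n g) :
    g ∈ (glSys hS).US (psi D e) := by
  obtain ⟨a, -, hap, rfl⟩ := hg
  refine Subgroup.list_prod_mem _ fun y hy => ?_
  obtain ⟨p, hp, rfl⟩ := List.mem_map.1 hy
  exact (glSys hS).x_mem_US (hap p hp) _

theorem inPsi_one (hS : Rules D K) (e : List ℤ) (n : ℕ) : InPsi hS e n (1 : GL D.Idx K) :=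
  ⟨[], by simp, by simp, by simp⟩

theorem inPsi_x (hS : Rules D K) {e : List ℤ} {r : ℕ} (hr : r ∈ psi D e) (t : K) :
    InPsi hS e 1 ((glSys hS).x r t) :=
  ⟨[(⟨r, hr.1⟩, t)], by simp, by simpa using hr, by simp⟩

theorem exists_inPsi_of_mem (hS : Rules D K) {e : List ℤ} {g : GL D.Idx K}
    (hg : g ∈ (glSys hS).US (psi D e)) : ∃ n, InPsi hS e n g := by
  refine Subgroup.closure_induction (p := fun g _ => ∃ n, InPsi hS e n g) ?_ ?_ ?_ ?_ hg
  · rintro _ ⟨r, hr, t, rfl⟩
    exact ⟨1, inPsi_x hS hr t⟩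
  · exact ⟨0, inPsi_one hS e 0⟩
  · rintro x y _ _ ⟨m, hx⟩ ⟨n, hy⟩
    exact ⟨m + n, hx.mul hy⟩
  · rintro x _ ⟨n, ts, hts, hp, rfl⟩
    refine ⟨n, (ts.map fun p => (p.1, -p.2)).reverse, by simpa using hts, ?_, ?_⟩
    · intro p hp'
      rw [List.mem_reverse, List.mem_map] at hp'
      obtain ⟨q, hq, rfl⟩ := hp'
      exact hp q hq
    · rw [List.prod_inv_reverse]
      simp only [List.map_reverse, List.map_map]
      refine congrArg (fun l : List (GL D.Idx K) => l.reverse.prod) (List.map_congr_left fun p _ => ?_)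
      exact (glSys hS).x_inv p.1.2 p.2

theorem inPsi_US (hS : Rules D K) (hR : RootTable D len) (e : List ℤ) {φ : (Fin D.rank → ℤ) →+ ℤ} {T : Set ℕ}
    (hT : UClosed D len φ T) (hTe : T ⊆ psi D e) {u : GL D.Idx K} (hu : u ∈ (glSys hS).US T) :
    InPsi hS e D.nroots u := by
  classical
  obtain ⟨L, hL⟩ := hT.exists_enum
  obtain ⟨t, rfl⟩ := (glSys hS).exists_coef hR hT hL hu
  refine ⟨L.attach.map fun r => (⟨r.1, hT.lt r.1 ((hL.2 r.1).1 r.2)⟩, t r.1), ?_, ?_, ?_⟩
  · rw [List.length_map, List.length_attach]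
    have : L.toFinset ⊆ Finset.range D.nroots := fun r hr =>
      Finset.mem_range.2 (hT.lt r ((hL.2 r).1 (List.mem_toFinset.1 hr)))
    have h2 := Finset.card_le_card this
    rwa [List.toFinset_card_of_nodup hL.1, Finset.card_range] at h2
  · intro p hp
    obtain ⟨r, -, rfl⟩ := List.mem_map.1 hp
    exact hTe ((hL.2 r.1).1 r.2)
  · rw [List.map_map]
    show (L.map fun r => (glSys hS).x r (t r)).prod = _
    conv_lhs => rw [← List.attach_map_subtype_val L, List.map_map]
    rfl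

theorem par_neg (hR : RootTable D len) (e : List ℤ) {s : ℕ} (hs : s ∈ psi D e) : D.neg s ∈ psi D e := by
  refine ⟨hR.neg_lt s hs.1, ?_⟩
  have h1 := hs.2
  simp only [par, decide_eq_true_eq] at h1 ⊢
  have hn : ∀ i : Fin D.rank, e.getD i 0 * D.cartan i (D.neg s) = -(e.getD i 0 * D.cartan i s) := fun i => by
    rw [hR.cartan_neg i.2 hs.1]; ring
  simp only [hn, Finset.sum_neg_distrib]
  omega

theorem inPsi_nEl (hS : Rules D K) (hR : RootTable D len) {e : List ℤ} {r : ℕ} (hr : r ∈ psi D e) (t : K) :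
    InPsi hS e 3 ((glSys hS).nEl r t) :=
  ((inPsi_x hS hr t).mul (inPsi_x hS (par_neg hR e hr) _)).mul (inPsi_x hS hr t)

theorem inPsi_cor (hD : RootData D C) (hS : Rules D K) (hR : RootTable D len) {T : InvTab D}
    (hv : T.Valid D C) {g : List (Fin D.rank) × Fin D.rank} (hg : g ∈ T.gens) (x : Kˣ) :
    InPsi hS T.e 12 (tauC hS hR fun j => x ^ corVec g j) := by
  obtain ⟨a, ha, hga⟩ := (glSys hS).conjP_nW hS hR g.1
  have hp := hR.simple_lt g.2 g.2.2
  have hr : act D g.1 (D.simple g.2) ∈ psi D T.e := ⟨hR.act_lt g.1 hp, (hv.par_gen hD hR hg).1⟩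
  have e0 : tauC hS hR (Pi.mulSingle g.2 x) = (glSys hS).hEl (D.simple g.2) x := by
    rw [tauC, Sys.tau, MonoidHom.noncommPiCoprod_mulSingle]
    rfl
  obtain ⟨d, hd⟩ := exists_tauC hS hR
    ((glSys hS).nW_conj_Hbar hS hR g.1 (tauC_mem hS hR (Pi.mulSingle g.2 x)))
  have e1 : (glSys hS).nW g.1 * tauC hS hR (Pi.mulSingle g.2 x) = tauC hS hR d * (glSys hS).nW g.1 := by
    rw [hd, inv_mul_cancel_right]
  have hde : d = fun j => x ^ corVec g j := by
    rw [← mul_inv_eq_one]
    have hmem : d * (fun j => x ^ corVec g j)⁻¹ ∈ rootKer D K := by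
      rw [mem_rootKer_iff]
      intro l
      obtain ⟨s, hs, hact⟩ := act_surj hR g.1 (hR.simple_lt l l.2)
      rw [← hact, chr_mul, chr_inv, chr_of_conj hS hR g.1 e1 hs, mul_inv_eq_one]
      have e3 : (fun j => x ^ corVec g j) = mact (wMat D g.1.reverse)ᵀ (Pi.mulSingle g.2 x) := funext fun j => by
        show _ = chr ((wMat D g.1.reverse)ᵀ j) _
        rw [chr, Finset.prod_eq_single g.2 (fun i _ hi => by simp [Pi.mulSingle_eq_of_ne hi]) (by simp),
          Pi.mulSingle_eq_same]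
        rfl
      rw [e3, chr_mact, Matrix.vecMul_transpose, ← kap_act hR _ (hR.act_lt g.1 hs), hR.act_reverse_act g.1 hs]
    rwa [Chev.FieldFix.rootKer_eq_bot hD.unimod, Subgroup.mem_bot] at hmem
  rw [← hde, hd, e0, Sys.ConjP.hEl hR ha hga hp, (glSys hS).hEl_inv hR hr.1, Sys.hEl]
  exact (((inPsi_nEl hS hR hr _).mul (inPsi_nEl hS hR hr _)).mul
    ((inPsi_nEl hS hR hr _).mul (inPsi_nEl hS hR hr _)))

/-- Twice each fundamental coroot is an integral combination of those of the generators. -/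
def CorOK (T : InvTab D) (Z : List (List ℤ)) : Prop :=
  ∀ p j : Fin D.rank, (∑ l : Fin T.gens.length, (Z.getD p []).getD l 0 * corVec (T.gens.get l) j) =
    if p = j then 2 else 0

theorem inPsi_Hbar (hD : RootData D C) (hS : Rules D K) (hR : RootTable D len) {T : InvTab D}
    (hv : T.Valid D C) {Z : List (List ℤ)} (hZ : CorOK T Z) (hroot : ∀ x : K, ∃ y, y * y = x)
    {h : GL D.Idx K} (hh : h ∈ (glSys hS).Hbar) :
    InPsi hS T.e (D.rank * (T.gens.length * 12)) h := by
  classical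
  obtain ⟨c, rfl⟩ := exists_tauC hS hR hh
  choose r hr using fun i : Fin D.rank => hroot (c i : K)
  have hr0 : ∀ i, r i ≠ 0 := fun i e => (c i).ne_zero (by rw [← hr i, e, mul_zero])
  have hfin : ∀ {ι : Type} (s : Finset ι) (f : ι → Fin D.rank → Kˣ) (B : ℕ),
      (∀ a ∈ s, InPsi hS T.e B (tauC hS hR (f a))) → InPsi hS T.e (s.card * B) (tauC hS hR (∏ a ∈ s, f a)) := by
    intro ι s f B
    induction s using Finset.induction_on with
    | empty => intro _; rw [Finset.prod_empty, map_one]; exact inPsi_one hS _ _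
    | insert a s ha ih =>
      intro hs
      rw [Finset.prod_insert ha, map_mul, Finset.card_insert_of_notMem ha, Nat.succ_mul, Nat.add_comm]
      exact (hs a (Finset.mem_insert_self a s)).mul (ih fun b hb => hs b (Finset.mem_insert_of_mem hb))
  have key : c = ∏ p : Fin D.rank, ∏ l : Fin T.gens.length,
      fun j => (Units.mk0 (r p) (hr0 p) ^ (Z.getD p []).getD l 0) ^ corVec (T.gens.get l) j := by
    funext j
    rw [Finset.prod_apply, Finset.prod_eq_single j]
    · rw [Finset.prod_apply]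
      simp only [← _root_.zpow_mul]
      rw [← zpow_sum_finset, hZ j j, if_pos rfl]
      refine Units.ext ?_
      rw [Units.val_zpow_eq_zpow_val, Units.val_mk0, zpow_ofNat, sq, hr]
    · intro p _ hp
      rw [Finset.prod_apply]
      simp only [← _root_.zpow_mul]
      rw [← zpow_sum_finset, hZ p j, if_neg hp, zpow_zero]
    · simp
  rw [key]
  have h1 := hfin Finset.univ (fun p => ∏ l : Fin T.gens.length,
    fun j => (Units.mk0 (r p) (hr0 p) ^ (Z.getD p []).getD l 0) ^ corVec (T.gens.get l) j)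
    (T.gens.length * 12) fun p _ => by
      have := hfin Finset.univ (fun l : Fin T.gens.length =>
        fun j => (Units.mk0 (r p) (hr0 p) ^ (Z.getD p []).getD l 0) ^ corVec (T.gens.get l) j) 12
        fun l _ => inPsi_cor hD hS hR hv (List.get_mem _ _) _
      rwa [Finset.card_univ, Fintype.card_fin] at this
  rwa [Finset.card_univ, Fintype.card_fin] at h1

/-- Over a field with square roots the centralizer consists of boundedly long products of root elements. -/
theorem cent_bounded (hD : RootData D C) (hS : Rules D K) (hR : RootTable D len) {T : InvTab D}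
    (hv : T.Valid D C) {Z : List (List ℤ)} (hZ : CorOK T Z) (hroot : ∀ x : K, ∃ y, y * y = x)
    (h2 : (2 : K) ≠ 0) :
    ∃ N, ∀ y ∈ (glSys hS).Gbar, hInv hS hR T.e * y = y * hInv hS hR T.e → InPsi hS T.e N y := by
  classical
  have hH : (glSys hS).Hbar ≤ (glSys hS).US (psi D T.e) := fun h hh =>
    (inPsi_Hbar hD hS hR hv hZ hroot hh).mem
  have hone : ∀ w : List (Fin D.rank), ∃ n, Fixes D T.e w → InPsi hS T.e n ((glSys hS).nW w) := fun w => by
    by_cases hw : Fixes D T.e w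
    · obtain ⟨n, hn⟩ := exists_inPsi_of_mem hS (sup_le le_rfl hH (nW_fixes_mem hv hD hS hR hw))
      exact ⟨n, fun _ => hn⟩
    · exact ⟨0, fun h => absurd h hw⟩
  choose f hf using hone
  obtain ⟨M, hM⟩ := ((List.finite_length_le (Fin D.rank) D.nroots).image f).bddAbove
  refine ⟨D.nroots + D.rank * (T.gens.length * 12) + M + D.nroots, fun y hy hc => ?_⟩
  obtain ⟨u, hu, h, hh, w, hwred, hw, v, hv', rfl⟩ := cent_NF hD hS hR T.e h2 hy hc
  have hlen : w.length ≤ D.nroots := by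
    rw [← hwred, invCount_eq]
    refine (Finset.card_le_card (t := Finset.range D.nroots) fun r hr => ?_).trans (Finset.card_range _).le
    exact Finset.mem_range.2 ((mem_invFin D w r).1 hr).1.1
  exact (((inPsi_US hS hR T.e (closed_inter_psi hR T.e hR.posSet_closed) Set.inter_subset_right hu).mul
    (inPsi_Hbar hD hS hR hv hZ hroot hh)).mul ((hf w hw).mono (hM ⟨w, hlen, rfl⟩))).mul
    (inPsi_US hS hR T.e (closed_inter_psi hR T.e (hR.inv_closed w)) Set.inter_subset_right hv')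

/-- A parameter tuple supported on `Ψ` for a product of root elements with roots in `Ψ`. -/
theorem exists_maskWord (hS : Rules D K) (e : List ℤ) : ∀ (N : ℕ) (g : GL D.Idx K), InPsi hS e N g →
    ∃ t : Fin N × Fin D.nroots → K, (∀ z, par D e z.2 ≠ true → t z = 0) ∧ g = fullWord hS t
  | 0, g, ⟨ts, hts, _, he⟩ => ⟨fun _ => 0, fun _ _ => rfl, by
      rw [List.length_eq_zero_iff.1 (Nat.le_zero.1 hts)] at he
      simpa [fullWord] using he⟩
  | N + 1, g, ⟨ts, hts, hp, he⟩ => by
    rcases ts with _ | ⟨⟨r, a⟩, ts⟩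
    · refine ⟨fun _ => 0, fun _ _ => rfl, ?_⟩
      simp [he, fullWord, glSys_x_zero]
    · obtain ⟨t, ht0, ht⟩ := exists_maskWord hS e N _
        ⟨ts, Nat.le_of_succ_le_succ hts, fun p hp' => hp p (List.mem_cons_of_mem _ hp'), rfl⟩
      refine ⟨fun z => Fin.cases (if z.2 = r then a else 0) (fun j => t (j, z.2)) z.1, ?_, ?_⟩
      · rintro ⟨j, s⟩ hs
        refine Fin.cases ?_ (fun j => ?_) j
        · show (if s = r then a else 0) = 0
          rw [if_neg]
          rintro rfl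
          exact hs (hp (s, a) List.mem_cons_self).2
        · exact ht0 (j, s) hs
      · rw [he, List.map_cons, List.prod_cons, ht, fullWord, fullWord, List.finRange_succ, List.map_cons,
          List.prod_cons, List.map_map]
        refine congrArg₂ (· * ·) ?_ rfl
        exact (block_single hS).symm

/-- Lang's theorem for the centralizer of the involution. -/
theorem cent_lang [IsAlgClosed K] (hD : RootData D C) (hS : Rules D K) (hR : RootTable D len) {T : InvTab D}
    (hv : T.Valid D C) {Z : List (List ℤ)} (hZ : CorOK T Z) (h2 : (2 : K) ≠ 0) (φ : K →+* K) (q : ℕ)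
    (hq : 2 ≤ q) (hφ : ∀ x, φ x = x ^ q) {n : GL D.Idx K} (hn : n ∈ (glSys hS).Gbar)
    (hc : hInv hS hR T.e * n = n * hInv hS hR T.e) :
    ∃ a ∈ (glSys hS).Gbar, hInv hS hR T.e * a = a * hInv hS hR T.e ∧
      n = a⁻¹ * Matrix.GeneralLinearGroup.map (n := D.Idx) φ a := by
  classical
  have hroot : ∀ x : K, ∃ y, y * y = x := fun x => by
    obtain ⟨y, hy⟩ := IsAlgClosed.exists_eq_mul_self x
    exact ⟨y, hy.symm⟩
  obtain ⟨N, hN⟩ := cent_bounded hD hS hR hv hZ hroot h2
  have hUG : (glSys hS).US (psi D T.e) ≤ (glSys hS).Gbar := by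
    rw [Sys.US, Subgroup.closure_le]
    rintro _ ⟨r, hr, t, rfl⟩
    exact Subgroup.subset_closure ⟨r, hr.1, t, rfl⟩
  let ρ : MvPolynomial (Fin N × Fin D.nroots) K →ₐ[K] MvPolynomial (Fin N × Fin D.nroots) K :=
    MvPolynomial.aeval fun z => if par D T.e z.2 = true then MvPolynomial.X z else 0
  have hρ : ∀ (t : Fin N × Fin D.nroots → K) P, MvPolynomial.eval t (ρ P) =
      MvPolynomial.eval (fun z => if par D T.e z.2 = true then t z else 0) P := fun t P => by
    have h1 : (MvPolynomial.aeval t : MvPolynomial (Fin N × Fin D.nroots) K →ₐ[K] K).comp ρ =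
        MvPolynomial.aeval (fun z => if par D T.e z.2 = true then t z else 0) := MvPolynomial.algHom_ext fun z => by
      simp only [AlgHom.comp_apply, ρ, MvPolynomial.aeval_X]
      split_ifs <;> simp
    exact congrArg (fun f : MvPolynomial (Fin N × Fin D.nroots) K →ₐ[K] K => f P) h1
  have hev : ∀ (A : Matrix D.Idx D.Idx (MvPolynomial (Fin N × Fin D.nroots) K)) t,
      (A.map ρ).map (MvPolynomial.eval t) =
        A.map (MvPolynomial.eval fun z => if par D T.e z.2 = true then t z else 0) := fun A t =>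
    Matrix.ext fun a b => hρ t (A a b)
  have hM : (polyWord D K N).map ρ * (polyWordInv D K N).map ρ = 1 := by
    refine Matrix.ext fun a b => MvPolynomial.funext fun t => ?_
    have e : ((polyWord D K N).map ρ * (polyWordInv D K N).map ρ).map (MvPolynomial.eval t) =
        (1 : Matrix D.Idx D.Idx K) := by
      rw [Matrix.map_mul, hev, hev, eval_polyWord hS, eval_polyWordInv hS, ← Units.val_mul, mul_inv_cancel,
        Units.val_one]
    refine (congrFun (congrFun e a) b).trans ?_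
    rw [Matrix.one_apply, Matrix.one_apply]
    split_ifs <;> simp
  have hG : ∀ g : GL D.Idx K, g ∈ (glSys hS).US (psi D T.e) ↔ ∃ t : Fin N × Fin D.nroots → K,
      (g : Matrix D.Idx D.Idx K) = ((polyWord D K N).map ρ).map (MvPolynomial.eval t) := by
    intro g
    constructor
    · intro hg
      obtain ⟨t, ht0, ht⟩ := exists_maskWord hS T.e N g (hN g (hUG hg) (US_comm_hInv hS hR T.e h2 hg))
      refine ⟨t, ?_⟩
      rw [hev, eval_polyWord hS, ht]
      congr 2
      funext z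
      split_ifs with hz
      · rfl
      · exact ht0 z hz
    · rintro ⟨t, ht⟩
      rw [hev, eval_polyWord hS] at ht
      rw [Units.ext ht]
      refine Subgroup.list_prod_mem _ fun y hy => ?_
      obtain ⟨j, -, rfl⟩ := List.mem_map.1 hy
      refine Subgroup.list_prod_mem _ fun z hz => ?_
      obtain ⟨r, -, rfl⟩ := List.mem_map.1 hz
      dsimp only
      split_ifs with hr
      · exact (glSys hS).x_mem_US (T := psi D T.e) ⟨r.2, hr⟩ _
      · rw [glSys_x_zero]; exact one_mem _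
  have hGφ : ∀ g ∈ (glSys hS).US (psi D T.e),
      Matrix.GeneralLinearGroup.map (n := D.Idx) φ g ∈ (glSys hS).US (psi D T.e) := by
    intro g hg
    have hle : (glSys hS).US (psi D T.e) ≤
        ((glSys hS).US (psi D T.e)).comap (Matrix.GeneralLinearGroup.map (n := D.Idx) φ) := by
      conv_lhs => rw [Sys.US]
      rw [Subgroup.closure_le]
      rintro _ ⟨r, hr, t, rfl⟩
      show Matrix.GeneralLinearGroup.map (n := D.Idx) φ (xGL D K r t) ∈ (glSys hS).US (psi D T.e)
      rw [Chev.FieldFix.map_xGL hS hS φ r t]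
      exact (glSys hS).x_mem_US hr _
    exact hle hg
  obtain ⟨a, ha, e⟩ := exists_lang hM ((glSys hS).US (psi D T.e)) hG φ q hq hφ hGφ (hN n hn hc).mem
  exact ⟨a, hUG ha, US_comm_hInv hS hR T.e h2 ha, e⟩

end Bound

section Count

/-- The order of the centralizer over a finite field. -/
theorem card_cent [Finite K] (hD : RootData D C) (hS : Rules D K) (hR : RootTable D len) {T : InvTab D}
    (hv : T.Valid D C) (h2 : (2 : K) ≠ 0) :
    Nat.card {y : GL D.Idx K // y ∈ (glSys hS).Gbar ∧ hInv hS hR T.e * y = y * hInv hS hR T.e} =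
      Nat.card K ^ (lastP D [] T.levels).toFinset.card * (Nat.card K - 1) ^ D.rank *
        (T.levels.map fun L => ((expList D C L).map fun k => Nat.card K ^ k).sum).prod := by
  classical
  have hTT : ((posSet D ∩ psi D T.e) : Set ℕ) = ↑(lastP D [] T.levels).toFinset := by
    ext s
    rw [Finset.mem_coe, List.mem_toFinset]
    constructor
    · rintro ⟨hp, hs, hpar⟩
      exact (hv.mem_last hD hs).2 ⟨hpar, hp⟩
    · intro h
      have hlt : s < D.nroots := by
        by_contra hge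
        have hall : ∀ (Ls : List (ChainLevel D)) (m : ℕ) (Pj : List ℕ), levelsOK D C T.gens m Pj Ls = true →
            (∀ x ∈ Pj, x < D.nroots) → ∀ x ∈ lastP D Pj Ls, x < D.nroots := by
          intro Ls
          induction Ls with
          | nil => intro m Pj _ hP x hx; exact hP x hx
          | cons L Ls ih =>
            intro m Pj hok _ x hx
            simp only [levelsOK, levelOK, Bool.and_eq_true, List.all_eq_true, decide_eq_true_eq] at hok
            exact ih (m + 1) L.P hok.2 (fun y hy => (hok.1.1.1.1.1.2 y hy).1) x hx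
        exact hge (hall T.levels 0 [] hv.levels_ok (by simp) s h)
      obtain ⟨hpar, hp⟩ := (hv.mem_last hD hlt).1 h
      exact ⟨hp, hlt, hpar⟩
  obtain ⟨S, hSdef⟩ : ∃ S, S = (genSet_finite hR T.gens).toFinset := ⟨_, rfl⟩
  have hrep : ∀ f : S, ∃ w : List (Fin D.rank), (f : Fin D.nroots → Fin D.nroots) = hR.actF w := fun f => by
    have hf : (f : Fin D.nroots → Fin D.nroots) ∈ (genSet_finite hR T.gens).toFinset := hSdef ▸ f.2
    obtain ⟨v, -, e⟩ := (Set.Finite.mem_toFinset _).1 hf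
    exact ⟨_, e⟩
  choose rep hrep using hrep
  have hfix : ∀ f : S, Fixes D T.e (rep f) := fun f => by
    have hf : (f : Fin D.nroots → Fin D.nroots) ∈ (genSet_finite hR T.gens).toFinset := hSdef ▸ f.2
    obtain ⟨v, hvm, e⟩ := (Set.Finite.mem_toFinset _).1 hf
    intro s hs
    rw [hR.mem_actF_iff.1 ((hrep f).symm.trans e) s hs]
    exact hv.fixes_genWord hD hR v hvm s hs
  let X := ↥((glSys hS).US (posSet D ∩ psi D T.e)) × (Fin D.rank → Kˣ) ×
    (Σ f : S, ↥((glSys hS).US (invSet D (rep f) ∩ psi D T.e)))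
  have hUG : ∀ T' : Set ℕ, (∀ r ∈ T', r < D.nroots) → (glSys hS).US T' ≤ (glSys hS).Gbar := fun T' hT' => by
    rw [Sys.US, Subgroup.closure_le]
    rintro _ ⟨r, hr, t, rfl⟩
    exact Subgroup.subset_closure ⟨r, hT' r hr, t, rfl⟩
  have hmem : ∀ p : X, ((p.1 : GL D.Idx K) * tauC hS hR p.2.1 * (glSys hS).nW (rep p.2.2.1) * p.2.2.2) ∈
      (glSys hS).Gbar ∧ hInv hS hR T.e *
        ((p.1 : GL D.Idx K) * tauC hS hR p.2.1 * (glSys hS).nW (rep p.2.2.1) * p.2.2.2) =
      ((p.1 : GL D.Idx K) * tauC hS hR p.2.1 * (glSys hS).nW (rep p.2.2.1) * p.2.2.2) * hInv hS hR T.e := by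
    rintro ⟨⟨u, hu⟩, c, f, v, hv'⟩
    refine ⟨?_, ?_⟩
    · refine mul_mem (mul_mem (mul_mem (hUG _ (fun r hr => hr.2.1) hu) ?_) ?_) (hUG _ (fun r hr => hr.2.1) hv')
      · rw [(glSys hS).Gbar_eq hR hS]
        exact Subgroup.mem_sup_left ((glSys hS).Hbar_le_Bbar (tauC_mem hS hR c))
      · rw [(glSys hS).Gbar_eq hR hS]
        exact Subgroup.mem_sup_right ((glSys hS).nW_mem_Nbar _)
    · have h1 := US_comm_hInv hS hR T.e h2 ((glSys hS).US_mono Set.inter_subset_right hu)
      have h4 := US_comm_hInv hS hR T.e h2 ((glSys hS).US_mono Set.inter_subset_right hv')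
      have h3 := (fixes_iff_comm hD hS hR T.e h2 (rep f)).2 (hfix f)
      have h5 : hInv hS hR T.e * tauC hS hR c = tauC hS hR c * hInv hS hR T.e := by
        rw [hInv, ← map_mul, ← map_mul, mul_comm]
      calc hInv hS hR T.e * (u * tauC hS hR c * (glSys hS).nW (rep f) * v)
          = (hInv hS hR T.e * u) * tauC hS hR c * (glSys hS).nW (rep f) * v := by simp [mul_assoc]
        _ = u * (hInv hS hR T.e * tauC hS hR c) * (glSys hS).nW (rep f) * v := by rw [h1]; simp [mul_assoc]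
        _ = u * tauC hS hR c * (hInv hS hR T.e * (glSys hS).nW (rep f)) * v := by rw [h5]; simp [mul_assoc]
        _ = u * tauC hS hR c * (glSys hS).nW (rep f) * (hInv hS hR T.e * v) := by rw [← h3]; simp [mul_assoc]
        _ = _ := by rw [h4]; simp [mul_assoc]
  let Φ : X → {y : GL D.Idx K // y ∈ (glSys hS).Gbar ∧ hInv hS hR T.e * y = y * hInv hS hR T.e} :=
    fun p => ⟨_, hmem p⟩
  have hbij : Function.Bijective Φ := by
    constructor
    · rintro ⟨⟨u, hu⟩, c, f, v, hv'⟩ ⟨⟨u', hu'⟩, c', f', v', hv''⟩ e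
      have e' : u * tauC hS hR c * (glSys hS).nW (rep f) * v =
          u' * tauC hS hR c' * (glSys hS).nW (rep f') * v' := congrArg Subtype.val e
      have hU : ∀ {z}, z ∈ (glSys hS).US (posSet D ∩ psi D T.e) → z ∈ (glSys hS).Ubar :=
        fun hz => (glSys hS).US_mono Set.inter_subset_left hz
      have hB : ∀ {z} (c : Fin D.rank → Kˣ), z ∈ (glSys hS).US (posSet D ∩ psi D T.e) →
          z * tauC hS hR c ∈ (glSys hS).Bbar := fun c hz =>
        mul_mem ((glSys hS).Ubar_le_Bbar (hU hz)) ((glSys hS).Hbar_le_Bbar (tauC_mem hS hR c))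
      obtain ⟨hact, huniq⟩ := (glSys hS).bruhat_unique hS hR (hB c hu) (hB c' hu')
        ((glSys hS).US_mono Set.inter_subset_left hv') ((glSys hS).US_mono Set.inter_subset_left hv'') e'
      obtain rfl : f = f' := Subtype.ext (by rw [hrep f, hrep f']; exact hR.mem_actF_iff.2 hact)
      obtain ⟨h1, h3⟩ := huniq rfl
      obtain ⟨h4, h5⟩ := (glSys hS).Bbar_decomp_unique hS hR (hU hu) (hU hu') (tauC_mem hS hR c)
        (tauC_mem hS hR c') h1
      obtain rfl := tauC_injective hS hR hD.unimod h5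
      subst h4 h3
      rfl
    · rintro ⟨y, hy, hc⟩
      obtain ⟨u, hu, h, hh, w, -, hw, v, hv', rfl⟩ := cent_NF hD hS hR T.e h2 hy hc
      obtain ⟨vv, hvm, he⟩ := (hv.fixes_iff hD hR w).1 hw
      let f : S := ⟨hR.actF (genWord D vv), hSdef.symm ▸ (Set.Finite.mem_toFinset _).2 ⟨vv, hvm, rfl⟩⟩
      have hact : ∀ r < D.nroots, act D w r = act D (rep f) r := fun r hr => by
        rw [he r hr, hR.mem_actF_iff.1 (hrep f) r hr]
      obtain ⟨k, hk, ek⟩ := (glSys hS).nW_congr hS hR hact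
      obtain ⟨c, hcc⟩ := exists_tauC hS hR (mul_mem hh hk)
      refine ⟨⟨⟨u, hu⟩, c, f, v, ?_⟩, Subtype.ext ?_⟩
      · rw [← invSet_congr D hact]
        exact hv'
      · show u * tauC hS hR c * (glSys hS).nW (rep f) * v = u * h * (glSys hS).nW w * v
        rw [hcc, ek]
        simp [mul_assoc]
  rw [← Nat.card_eq_of_bijective _ hbij, Nat.card_prod, Nat.card_prod, Nat.card_sigma,
    (glSys hS).card_US hR (closed_inter_psi hR T.e hR.posSet_closed), Nat.card_fun, Nat.card_units, Nat.card_fin,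
    hTT, Nat.card_coe_set_eq, Set.ncard_coe_finset, mul_assoc]
  congr 2
  rw [← hv.stab_sum hD hR, chainSum, ← hSdef]
  refine Finset.sum_bij (fun f _ => (f : Fin D.nroots → Fin D.nroots)) (fun f _ => f.2)
    (fun a _ b _ e => Subtype.ext e) (fun f hf => ⟨⟨f, hf⟩, Finset.mem_univ _, rfl⟩) (fun f _ => ?_)
  rw [(glSys hS).card_US hR (closed_inter_psi hR T.e (hR.inv_closed _))]
  congr 1
  rw [ellP, ← Finset.card_map ⟨Fin.val, Fin.val_injective⟩, Nat.card_coe_set_eq, ← Set.ncard_coe_finset]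
  congr 1
  ext r
  simp only [Finset.coe_map, Finset.coe_filter, Finset.mem_univ, true_and, Set.mem_image, Set.mem_ofPred_eq,
    Function.Embedding.coeFn_mk, Set.mem_inter_iff, invSet]
  constructor
  · rintro ⟨⟨hp, hn⟩, hlt, hpar⟩
    refine ⟨⟨r, hlt⟩, ⟨(hv.mem_last hD hlt).2 ⟨hpar, hp⟩, ?_⟩, rfl⟩
    rw [hrep f]
    exact hn
  · rintro ⟨x, ⟨hx, hn⟩, rfl⟩
    obtain ⟨hpar, hp⟩ := (hv.mem_last hD x.2).1 hx
    rw [hrep f] at hn
    exact ⟨⟨hp, hn⟩, x.2, hpar⟩

end Count

end Cfsg.Agent.Lang
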