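import Cfsg.Agent.Lang.Torus

/-!
Finite checks on tables giving the combinatorial hypotheses on a twisted torus (owner: helper32).
-/

set_option autoImplicit false

namespace Cfsg.Agent.Lang

open Cfsg.Lie Cfsg.Agent.ChevGrp Matrix

variable (D : ChevalleyDatum)

/-- The vector of a list. -/
def vecL (l : List ℤ) : Fin D.rank → ℤ := fun i => l.getD i 0

/-- The matrix of a list of rows. -/
def matL (A : List (List ℤ)) : Matrix (Fin D.rank) (Fin D.rank) ℤ := Matrix.of fun i j => (A.getD i []).getD j 0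

/-- A matrix applied to a vector, on lists. -/
def applyL (A : List (List ℤ)) (v : List ℤ) : List ℤ :=
  List.ofFn fun i : Fin D.rank => ∑ j : Fin D.rank, (A.getD i []).getD j 0 * v.getD j 0

/-- One reflection applied to the rows. -/
def stepL (i : Fin D.rank) (A : List (List ℤ)) : List (List ℤ) :=
  List.ofFn fun j : Fin D.rank => List.ofFn fun l : Fin D.rank =>
    (A.getD j []).getD l 0 - D.cartan j (D.simple i) * (A.getD i []).getD l 0

/-- The matrix of a word on lists. -/
def prodL : List (Fin D.rank) → List (List ℤ)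
  | [] => List.ofFn fun i : Fin D.rank => List.ofFn fun j : Fin D.rank => if i = j then 1 else 0
  | i :: w => stepL D i (prodL w)

variable {D}

theorem vecL_ofFn (v : Fin D.rank → ℤ) : vecL D (List.ofFn v) = v := by
  funext i
  simp [vecL, List.getD_eq_getElem?_getD, i.2]

theorem matL_ofFn (A : Fin D.rank → Fin D.rank → ℤ) :
    matL D (List.ofFn fun i => List.ofFn (A i)) = Matrix.of A := by
  ext i j
  simp [matL, List.getD_eq_getElem?_getD]

theorem vecL_applyL (A : List (List ℤ)) (v : List ℤ) : vecL D (applyL D A v) = matL D A *ᵥ vecL D v := by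
  rw [applyL, vecL_ofFn]
  rfl

theorem matL_prodL : ∀ w : List (Fin D.rank), matL D (prodL D w) = wMat D w
  | [] => by
    rw [prodL, matL_ofFn, wMat]
    ext i j
    simp [Matrix.one_apply]
  | i :: w => by
    rw [prodL, stepL, matL_ofFn, wMat, ← matL_prodL w]
    ext j l
    simp [reflMat, Matrix.mul_apply, matL, sub_mul, Finset.sum_sub_distrib, ite_mul]

/-- Tables for a twisted torus. -/
structure TorusTab where
  kl : List (List ℤ)
  perm : List ℕ
  orbits : List (List ℕ)
  base : List ℕ
  binv : List (List ℤ)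
  wit : List ℕ

variable (D) in
/-- Iterate the permutation table. -/
def iterP (p : List ℕ) : ℕ → ℕ → ℕ
  | 0, t => t
  | j + 1, t => p.getD (iterP p j t) 0

/-- A list is a piece of an orbit. -/
def chainOK (p : List ℕ) : List ℕ → Bool
  | a :: b :: l => decide (p.getD a 0 = b) && chainOK p (b :: l)
  | _ => true

variable (D)

/-- The matrix with the iterates of `t` as columns. -/
def colsL (C : TorusTab) (t : ℕ) : List (List ℤ) :=
  List.ofFn fun i : Fin D.rank => List.ofFn fun j : Fin D.rank => (C.kl.getD (iterP C.perm j t) []).getD i 0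

/-- The tables agree with the datum and word. -/
structure TorusTab.Valid (C : TorusTab) (w : List (Fin D.rank)) (Wl : List (List ℤ)) : Prop where
  kl_ok : C.kl = (List.range D.nroots).map fun s => List.ofFn (kap D s)
  nodup_ok : C.kl.Nodup
  w_ok : prodL D w = Wl
  perm_ok : ((List.range D.nroots).all fun s => decide (C.perm.getD s 0 < D.nroots) &&
    (applyL D Wl (C.kl.getD s []) == C.kl.getD (C.perm.getD s 0) [])) = true
  orb_chain : (C.orbits.all fun o => chainOK C.perm o && o.all fun x => decide (x < D.nroots)) = true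
  orb_cover : ((List.range D.nroots).all fun s => C.orbits.any fun o => o.contains s) = true
  base_chain : (chainOK C.perm C.base && C.base.all fun x => decide (x < D.nroots)) = true
  base_ne : C.base ≠ []
  binv_ok : matL D (colsL D C (C.base.headD 0)) * matL D C.binv = 1
  cent_ok : ((List.range D.nroots).all fun t => C.base.contains t ||
    (decide (C.wit.getD t 0 < D.nroots) &&
      !C.kl.contains (applyL D (colsL D C t) (applyL D C.binv (C.kl.getD (C.wit.getD t 0) []))))) = true

namespace TorusTab.Valid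

variable {D}
variable {C : TorusTab} {w : List (Fin D.rank)} {Wl : List (List ℤ)}

theorem getD_kl (h : C.Valid D w Wl) {s : ℕ} (hs : s < D.nroots) : C.kl.getD s [] = List.ofFn (kap D s) := by
  rw [h.kl_ok, List.getD_eq_getElem?_getD, List.getElem?_map, List.getElem?_range hs]
  rfl

theorem vec_kl (h : C.Valid D w Wl) {s : ℕ} (hs : s < D.nroots) : vecL D (C.kl.getD s []) = kap D s := by
  rw [h.getD_kl hs, vecL_ofFn]

theorem kap_inj (h : C.Valid D w Wl) : ∀ s < D.nroots, ∀ t < D.nroots, kap D s = kap D t → s = t := by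
  intro s hs t ht e
  have hn := h.nodup_ok
  rw [h.kl_ok] at hn
  exact List.inj_on_of_nodup_map hn (List.mem_range.2 hs) (List.mem_range.2 ht) (by rw [e])

theorem perm_lt (h : C.Valid D w Wl) {s : ℕ} (hs : s < D.nroots) : C.perm.getD s 0 < D.nroots := by
  have := List.all_eq_true.1 h.perm_ok s (List.mem_range.2 hs)
  simp only [Bool.and_eq_true, decide_eq_true_eq] at this
  exact this.1

theorem kap_perm (h : C.Valid D w Wl) {s : ℕ} (hs : s < D.nroots) :
    kap D (C.perm.getD s 0) = wMat D w *ᵥ kap D s := by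
  have := List.all_eq_true.1 h.perm_ok s (List.mem_range.2 hs)
  simp only [Bool.and_eq_true, beq_iff_eq] at this
  rw [← h.vec_kl (h.perm_lt hs), ← this.2, vecL_applyL, h.vec_kl hs, ← h.w_ok, matL_prodL]

theorem iterP_spec (h : C.Valid D w Wl) {t : ℕ} (ht : t < D.nroots) :
    ∀ j, iterP C.perm j t < D.nroots ∧ kap D (iterP C.perm j t) = wMat D w ^ j *ᵥ kap D t
  | 0 => ⟨ht, by simp [iterP]⟩
  | j + 1 => by
    obtain ⟨h1, h2⟩ := h.iterP_spec ht j
    refine ⟨h.perm_lt h1, ?_⟩
    rw [iterP, h.kap_perm h1, h2, Matrix.mulVec_mulVec, ← pow_succ']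

theorem chain_spec (h : C.Valid D w Wl) : ∀ (l : List ℕ) (a : ℕ), chainOK C.perm (a :: l) = true →
    (∀ x ∈ a :: l, x < D.nroots) → ∀ x ∈ a :: l, ∃ j, j < (a :: l).length ∧ kap D x = wMat D w ^ j *ᵥ kap D a
  | [], a, _, _, x, hx => by
    rw [List.mem_singleton] at hx
    exact ⟨0, by simp, by simp [hx]⟩
  | b :: l, a, hc, hlt, x, hx => by
    rcases List.mem_cons.1 hx with rfl | hx
    · exact ⟨0, by simp, by simp⟩
    simp only [chainOK, Bool.and_eq_true, decide_eq_true_eq] at hc
    obtain ⟨j, hj, e⟩ := h.chain_spec l b hc.2 (fun y hy => hlt y (List.mem_cons_of_mem _ hy)) x hx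
    refine ⟨j + 1, by simp only [List.length_cons] at hj ⊢; omega, ?_⟩
    rw [e, ← hc.1, h.kap_perm (hlt a (by simp)), Matrix.mulVec_mulVec, ← pow_succ]

theorem orbit_spec (h : C.Valid D w Wl) :
    ∀ s < D.nroots, ∃ r ∈ C.orbits.map fun o => o.headD 0, ∃ j : ℕ, kap D s = wMat D w ^ j *ᵥ kap D r := by
  intro s hs
  have h1 := List.all_eq_true.1 h.orb_cover s (List.mem_range.2 hs)
  obtain ⟨o, ho, hso⟩ := List.any_eq_true.1 h1
  rw [List.contains_iff_mem] at hso
  have h2 := List.all_eq_true.1 h.orb_chain o ho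
  simp only [Bool.and_eq_true, List.all_eq_true, decide_eq_true_eq] at h2
  refine ⟨_, List.mem_map.2 ⟨o, ho, rfl⟩, ?_⟩
  obtain _ | ⟨a, l⟩ := o
  · simp at hso
  · obtain ⟨j, -, e⟩ := h.chain_spec l a h2.1 h2.2 s hso
    exact ⟨j, e⟩

theorem matL_colsL (h : C.Valid D w Wl) {t : ℕ} (ht : t < D.nroots) :
    matL D (colsL D C t) = Matrix.of fun i j : Fin D.rank => (wMat D w ^ (j : ℕ) *ᵥ kap D t) i := by
  rw [colsL, matL_ofFn]
  ext i j
  obtain ⟨h1, h2⟩ := h.iterP_spec ht j
  show (C.kl.getD (iterP C.perm j t) []).getD i 0 = _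
  rw [Matrix.of_apply, ← h2, ← h.vec_kl h1]
  rfl

theorem cent_spec (h : C.Valid D w Wl) (L : Matrix (Fin D.rank) (Fin D.rank) ℤ)
    (hL : ∀ s < D.nroots, ∃ t < D.nroots, L *ᵥ kap D s = kap D t) (hc : L * wMat D w = wMat D w * L) :
    ∃ j < C.base.length, L = wMat D w ^ j := by
  rcases hb : C.base with _ | ⟨v, l⟩
  · exact absurd hb h.base_ne
  have h1 := h.base_chain
  simp only [Bool.and_eq_true, List.all_eq_true, decide_eq_true_eq, hb] at h1
  have hv : v < D.nroots := h1.2 v (by simp)
  obtain ⟨t, ht, e⟩ := hL v hv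
  have hB : matL D (colsL D C v) * matL D C.binv = 1 := by
    have := h.binv_ok
    rwa [hb] at this
  have hLB : L * matL D (colsL D C v) = matL D (colsL D C t) := by
    rw [h.matL_colsL hv, h.matL_colsL ht]
    ext i j
    have e2 : L *ᵥ (wMat D w ^ (j : ℕ) *ᵥ kap D v) = wMat D w ^ (j : ℕ) *ᵥ kap D t := by
      rw [Matrix.mulVec_mulVec, (Commute.pow_right (show Commute L (wMat D w) from hc) j).eq,
        ← Matrix.mulVec_mulVec, e]
    exact congrFun e2 i
  have hLeq : L = matL D (colsL D C t) * matL D C.binv := by rw [← hLB, mul_assoc, hB, mul_one]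
  have h3 := List.all_eq_true.1 h.cent_ok t (List.mem_range.2 ht)
  simp only [Bool.or_eq_true, Bool.and_eq_true, decide_eq_true_eq, Bool.not_eq_true', hb] at h3
  rcases h3 with h3 | ⟨hw, h4⟩
  · rw [List.contains_iff_mem] at h3
    obtain ⟨j, hj, e3⟩ := h.chain_spec l v h1.1 h1.2 t h3
    refine ⟨j, hj, ?_⟩
    have e4 : matL D (colsL D C t) = wMat D w ^ j * matL D (colsL D C v) := by
      rw [h.matL_colsL hv, h.matL_colsL ht]
      ext i l'
      have e5 : wMat D w ^ (l' : ℕ) *ᵥ kap D t = wMat D w ^ j *ᵥ (wMat D w ^ (l' : ℕ) *ᵥ kap D v) := by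
        rw [e3, Matrix.mulVec_mulVec, Matrix.mulVec_mulVec, ← pow_add, ← pow_add, Nat.add_comm]
      exact congrFun e5 i
    rw [hLeq, e4, mul_assoc, hB, mul_one]
  · exfalso
    obtain ⟨u, hu, e3⟩ := hL _ hw
    have hlist : applyL D (colsL D C t) (applyL D C.binv (C.kl.getD (C.wit.getD t 0) [])) = C.kl.getD u [] := by
      have e4 : vecL D (applyL D (colsL D C t) (applyL D C.binv (C.kl.getD (C.wit.getD t 0) []))) = kap D u := by
        rw [vecL_applyL, vecL_applyL, h.vec_kl hw, Matrix.mulVec_mulVec, ← hLeq, e3]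
      rw [h.getD_kl hu, ← e4]
      rw [applyL, vecL_ofFn]
    have hmem : C.kl.getD u [] ∈ C.kl := by
      rw [h.getD_kl hu, h.kl_ok]
      exact List.mem_map.2 ⟨u, List.mem_range.2 hu, rfl⟩
    rw [hlist, List.contains_iff_mem.2 hmem] at h4
    exact Bool.noConfusion h4

end TorusTab.Valid

end Cfsg.Agent.Lang
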