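import Cfsg.Agent.Lang.Invol
import Cfsg.Agent.Lang.Cent
import Cfsg.Agent.Lang.TorusCheck
import Cfsg.Agent.Chev.Torus

/-!
Two classes of involutions of a Chevalley group with unimodular Cartan matrix over a finite field of odd order,
and the orders of their centralizers (owner: helper32).
-/

set_option autoImplicit false
set_option linter.style.haveILetI false

namespace Cfsg.Agent.Lang

open Cfsg.Lie Cfsg.Agent.ChevGrp Matrix
open Cfsg.Agent.Chev (Cert)
open scoped MatrixGroups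

variable {D : ChevalleyDatum} {C : Cert} {len : ℕ → ℕ}

/-- All vectors of zeros and ones of a given length. -/
def vecs : ℕ → List (List ℤ)
  | 0 => [[]]
  | n + 1 => (vecs n).flatMap fun l => [0 :: l, 1 :: l]

theorem mem_vecs : ∀ l : List ℤ, (∀ x ∈ l, x = 0 ∨ x = 1) → l ∈ vecs l.length
  | [], _ => by simp [vecs]
  | a :: l, h => by
    rw [List.length_cons, vecs, List.mem_flatMap]
    refine ⟨l, mem_vecs l fun x hx => h x (List.mem_cons_of_mem _ hx), ?_⟩
    rcases h a List.mem_cons_self with rfl | rfl <;> simp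

variable (D C) in
/-- Each nonzero sign vector is conjugate to one of two given ones by the listed word. -/
def coverOK (e₁ e₂ : List ℤ) (cov : List (Bool × List (Fin D.rank))) : Bool :=
  (vecs D.rank).zipIdx.all fun p => p.1.all (fun x => x == 0) ||
    (List.finRange D.rank).all fun l => parC D C p.1 (D.simple l) ==
      parC D C (bif (cov.getD p.2 (false, [])).1 then e₂ else e₁)
        (actC D C (cov.getD p.2 (false, [])).2.reverse (D.simple l))

theorem coverOK_spec (hD : RootData D C) (hR : RootTable D len) {e₁ e₂ : List ℤ}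
    {cov : List (Bool × List (Fin D.rank))} (h : coverOK D C e₁ e₂ cov = true) {e' : List ℤ}
    (he : e' ∈ vecs D.rank) (hne : ∃ x ∈ e', x ≠ 0) :
    ∃ (e : List ℤ) (d : List (Fin D.rank)), (e = e₁ ∨ e = e₂) ∧
      ∀ l : Fin D.rank, par D e' (D.simple l) = par D e (act D d.reverse (D.simple l)) := by
  obtain ⟨i, hi, rfl⟩ := List.mem_iff_getElem.1 he
  have h1 := List.all_eq_true.1 h ((vecs D.rank)[i], i) (List.mem_zipIdx_iff_getElem?.2 (by simp [hi]))
  rw [Bool.or_eq_true] at h1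
  rcases h1 with h1 | h1
  · obtain ⟨x, hx, hx0⟩ := hne
    exact absurd (beq_iff_eq.1 (List.all_eq_true.1 h1 x hx)) hx0
  · refine ⟨bif (cov.getD i (false, [])).1 then e₂ else e₁, (cov.getD i (false, [])).2, ?_, fun l => ?_⟩
    swap
    · have h2 := beq_iff_eq.1 (List.all_eq_true.1 h1 l (List.mem_finRange l))
      rwa [parC_eq hD _ (hR.simple_lt l l.2), actC_eq hD hR _ (hR.simple_lt l l.2),
        parC_eq hD _ (hR.act_lt _ (hR.simple_lt l l.2))] at h2
    · cases (cov.getD i (false, [])).1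
      · exact Or.inl rfl
      · exact Or.inr rfl

variable (D) in
/-- The check behind `CorOK`, with the coroots of the generators tabulated. -/
def corCheck (T : InvTab D) (cor Z : List (List ℤ)) : Bool :=
  ((List.finRange T.gens.length).all fun l =>
    cor.getD l [] == (prodL D (T.gens.get l).1.reverse).getD (T.gens.get l).2 []) &&
  (List.finRange D.rank).all fun p => (List.finRange D.rank).all fun j =>
    decide ((∑ l : Fin T.gens.length, (Z.getD p []).getD l 0 * (cor.getD l []).getD j 0) =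
      if p = j then 2 else 0)

theorem corOK_of_check {T : InvTab D} {cor Z : List (List ℤ)} (h : corCheck D T cor Z = true) :
    CorOK T Z := by
  rw [corCheck, Bool.and_eq_true, List.all_eq_true, List.all_eq_true] at h
  intro p j
  have h2 := List.all_eq_true.1 (h.2 p (List.mem_finRange p)) j (List.mem_finRange j)
  rw [decide_eq_true_eq] at h2
  rw [← h2]
  refine Finset.sum_congr rfl fun l _ => ?_
  rw [beq_iff_eq.1 (h.1 l (List.mem_finRange l)), corVec, ← matL_prodL]
  rfl

variable {K : Type*} [Field K]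

theorem chr_sgn_val (e : List ℤ) (s : ℕ) :
    chr (kap D s) (sgn D K e) = if par D e s = true then 1 else -1 := by
  have h : chr (kap D s) (sgn D K e) = (-1 : Kˣ) ^ (∑ i : Fin D.rank, e.getD i 0 * D.cartan i s) := by
    rw [chr, zpow_sum_finset]
    exact Finset.prod_congr rfl fun i _ => by rw [sgn, ← _root_.zpow_mul]; rfl
  rw [h, neg_one_zpow_eq_ite]
  simp only [par, decide_eq_true_eq, Int.even_iff]

theorem sgn_sq (e : List ℤ) : sgn D K e ^ 2 = 1 := funext fun i => by
  show ((-1 : Kˣ) ^ e.getD i 0) ^ 2 = 1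
  rw [← zpow_natCast, ← _root_.zpow_mul, mul_comm, _root_.zpow_mul]
  simp

theorem map_hInv {E : Type*} [Field E] (hK : Rules D K) (hE : Rules D E) (hR : RootTable D len)
    (f : K →+* E) (e : List ℤ) :
    Matrix.GeneralLinearGroup.map (n := D.Idx) f (hInv hK hR e) = hInv hE hR e := by
  rw [hInv, hInv, tauC, tauC, Chev.FieldFix.map_tau hK hE hR f]
  congr 1
  funext i
  show Units.map f.toMonoidHom ((-1) ^ e.getD i 0) = (-1) ^ e.getD i 0
  rw [map_zpow]
  congr 1
  exact Units.ext (by simp)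

theorem nEl_mul_x (hV : C.Valid D) (hS : Rules D K) (hR : RootTable D len) {r : ℕ} (hr : r < D.nroots) {a : K}
    (ha : a ≠ 0) (u : K) :
    (glSys hS).nEl r a * (glSys hS).x r u = (glSys hS).x (D.neg r) (-(u / a ^ 2)) * (glSys hS).nEl r a := by
  refine Units.ext ?_
  have hn : ((glSys hS).nEl r a : Matrix D.Idx D.Idx K) = D.nMat K r a := by
    rw [hV.nMat_eq_prod, Sys.nEl]
    simp [glSys, val_xGL hS]
  rw [Units.val_mul, Units.val_mul, hn]
  simp only [glSys, val_xGL hS]
  exact hV.nMat_mul_x r hr a ha u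

/-- Two classes of involutions. -/
theorem involution_classes {F : Type*} [Field F] [Fintype F]
    (hmem : D ∈ [chevG2, chevB2, chevD4, chevF4, chevE6, chevE7, chevE8])
    (hD : RootData D C) (hq : Odd (Fintype.card F))
    {T₁ T₂ : InvTab D} (hv₁ : T₁.Valid D C) (hv₂ : T₂.Valid D C)
    {Z₁ Z₂ : List (List ℤ)} (hZ₁ : CorOK T₁ Z₁) (hZ₂ : CorOK T₂ Z₂)
    {cov : List (Bool × List (Fin D.rank))} (hcov : coverOK D C T₁.e T₂.e cov = true)
    (hne₁ : ((List.range D.nroots).any fun s => !parC D C T₁.e s) = true)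
    (hne₂ : ((List.range D.nroots).any fun s => !parC D C T₂.e s) = true)
    (n₁ n₂ : ℕ)
    (hn₁ : Fintype.card F ^ (lastP D [] T₁.levels).toFinset.card * (Fintype.card F - 1) ^ D.rank *
      (T₁.levels.map fun L => ((expList D C L).map fun k => Fintype.card F ^ k).sum).prod = n₁)
    (hn₂ : Fintype.card F ^ (lastP D [] T₂.levels).toFinset.card * (Fintype.card F - 1) ^ D.rank *
      (T₂.levels.map fun L => ((expList D C L).map fun k => Fintype.card F ^ k).sum).prod = n₂)
    (hn : n₁ ≠ n₂) :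
    ∃ s t : ↥(D.group F), orderOf s = 2 ∧ orderOf t = 2 ∧ ¬ IsConj s t ∧
      (∀ u : ↥(D.group F), orderOf u = 2 → IsConj u s ∨ IsConj u t) ∧
      Nat.card (Subgroup.centralizer ({s} : Set ↥(D.group F))) = n₁ ∧
      Nat.card (Subgroup.centralizer ({t} : Set ↥(D.group F))) = n₂ := by
  classical
  have hF : Rules D F := Cfsg.Agent.Chev.rules_of_mem F hmem
  obtain ⟨len, hR⟩ := hF.root
  have hS : Rules D (AlgebraicClosure F) := Cfsg.Agent.Chev.rules_of_mem _ hmem
  obtain ⟨q, hqdef⟩ : ∃ q, Fintype.card F = q := ⟨_, rfl⟩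
  obtain ⟨f, hfdef⟩ : ∃ f : F →+* AlgebraicClosure F, f = algebraMap F (AlgebraicClosure F) := ⟨_, rfl⟩
  obtain ⟨φ, hφ⟩ : ∃ φ : AlgebraicClosure F →+* AlgebraicClosure F, ∀ x, φ x = x ^ q :=
    ⟨(FiniteField.frobeniusAlgHom F (AlgebraicClosure F)).toRingHom, fun x => by rw [← hqdef]; rfl⟩
  have hq2 : 2 ≤ q := hqdef ▸ Fintype.one_lt_card
  have h2F : (2 : F) ≠ 0 := by
    intro h
    have : CharP F 2 := CharTwo.of_one_ne_zero_of_two_eq_zero one_ne_zero h
    obtain ⟨n, -, hcard⟩ := FiniteField.card F 2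
    rw [hcard] at hq
    exact absurd hq (Nat.not_odd_iff_even.2 ((Nat.even_pow' n.ne_zero).2 even_two))
  have h2 : (2 : AlgebraicClosure F) ≠ 0 := by
    rw [← map_ofNat (algebraMap F (AlgebraicClosure F)) 2]
    exact (map_ne_zero _).2 h2F
  have hfix : ∀ a, φ a = a → ∃ b, f b = a := by
    intro a ha
    rw [hφ] at ha
    have hne : (Polynomial.X ^ q - Polynomial.X : Polynomial (AlgebraicClosure F)) ≠ 0 :=
      FiniteField.X_pow_card_sub_X_ne_zero _ (by omega)
    have hsub : Finset.univ.image f ⊆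
        (Polynomial.X ^ q - Polynomial.X : Polynomial (AlgebraicClosure F)).roots.toFinset := by
      intro b hb
      obtain ⟨c, -, rfl⟩ := Finset.mem_image.1 hb
      rw [Multiset.mem_toFinset, Polynomial.mem_roots hne]
      simp [← map_pow, ← hqdef, FiniteField.pow_card]
    have hcard : (Polynomial.X ^ q - Polynomial.X : Polynomial (AlgebraicClosure F)).roots.toFinset.card ≤
        (Finset.univ.image f).card := by
      rw [Finset.card_image_of_injective _ f.injective, Finset.card_univ, hqdef]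
      refine (Multiset.toFinset_card_le _).trans ((Polynomial.card_roots' _).trans ?_)
      rw [FiniteField.X_pow_card_sub_X_natDegree_eq _ (by omega)]
    have hmem : a ∈ Finset.univ.image f := by
      rw [Finset.eq_of_subset_of_card_le hsub hcard, Multiset.mem_toFinset, Polynomial.mem_roots hne]
      simp [ha]
    obtain ⟨b, -, hb⟩ := Finset.mem_image.1 hmem
    exact ⟨b, hb⟩
  obtain ⟨ι, hιdef⟩ : ∃ ι : ↥(D.group F) →* GL D.Idx (AlgebraicClosure F),
      ι = (Matrix.GeneralLinearGroup.map (n := D.Idx) f).comp (D.group F).subtype := ⟨_, rfl⟩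
  have hι : Function.Injective ι := hιdef ▸ (glMap_injective D f).comp Subtype.val_injective
  have hιval : ∀ g : ↥(D.group F), ι g = Matrix.GeneralLinearGroup.map (n := D.Idx) f g.1 := fun g => by
    rw [hιdef]; rfl
  obtain ⟨μ, hμdef⟩ : ∃ μ : GL D.Idx (AlgebraicClosure F) →* GL D.Idx (AlgebraicClosure F),
      μ = Matrix.GeneralLinearGroup.map (n := D.Idx) φ := ⟨_, rfl⟩
  have hιfix : ∀ g, μ (ι g) = ι g := fun g => by
    subst hμdef hιdef
    refine Units.ext (Matrix.ext fun i j => ?_)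
    show φ (f _) = f _
    rw [hφ, ← map_pow, ← hqdef, FiniteField.pow_card]
  have hsurj : ∀ z ∈ D.group (AlgebraicClosure F), μ z = z → ∃ g, ι g = z := by
    intro z hz hzf
    obtain ⟨g, hg, e⟩ := Chev.FieldFix.fixed_mem_map hS hF hR hD.unimod φ f hfix hz (hμdef ▸ hzf)
    exact ⟨⟨g, hg⟩, hιdef ▸ e⟩
  have hHG : ∀ e, hInv hF hR e ∈ D.group F := fun e => by
    rw [group_eq hF, (glSys hF).Gbar_eq hR hF]
    exact Subgroup.mem_sup_left ((glSys hF).Hbar_le_Bbar (tauC_mem hF hR _))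
  obtain ⟨mk, hmk⟩ : ∃ mk : List ℤ → ↥(D.group F), ∀ e, (mk e : GL D.Idx F) = hInv hF hR e :=
    ⟨fun e => ⟨_, hHG e⟩, fun _ => rfl⟩
  have hιmk : ∀ e, ι (mk e) = hInv hS hR e := fun e => by rw [hιval, hmk, map_hInv hF hS hR]
  have hord : ∀ e, ((List.range D.nroots).any fun s => !parC D C e s) = true → orderOf (mk e) = 2 := by
    intro e he
    obtain ⟨s, hs, hs'⟩ := List.any_eq_true.1 he
    rw [List.mem_range] at hs
    rw [parC_eq hD e hs, Bool.not_eq_true'] at hs'
    refine orderOf_eq_prime (Subtype.ext ?_) fun h => ?_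
    · rw [Subgroup.coe_pow, hmk, Subgroup.coe_one, hInv, ← map_pow, sgn_sq, map_one]
    · have h1 : hInv hF hR e = tauC hF hR 1 := by rw [map_one, ← hmk, h, Subgroup.coe_one]
      have h3 := chr_sgn_val (K := F) (D := D) e s
      rw [tauC_injective hF hR hD.unimod h1, hs', if_neg Bool.false_ne_true] at h3
      simp only [chr, Pi.one_apply, _root_.one_zpow, Finset.prod_const_one] at h3
      refine h2F ?_
      have h4 := congrArg Units.val h3
      simp only [Units.val_neg, Units.val_one] at h4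
      linear_combination h4
  have hcard : ∀ (T : InvTab D), T.Valid D C → Nat.card (Subgroup.centralizer ({mk T.e} : Set ↥(D.group F))) =
      Fintype.card F ^ (lastP D [] T.levels).toFinset.card * (Fintype.card F - 1) ^ D.rank *
        (T.levels.map fun L => ((expList D C L).map fun k => Fintype.card F ^ k).sum).prod := by
    intro T hv
    simp only [← Nat.card_eq_fintype_card]
    rw [← card_cent hD hF hR hv h2F]
    refine Nat.card_congr
      { toFun := fun g => ⟨g.1.1, group_eq hF ▸ g.1.2, ?_⟩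
        invFun := fun y => ⟨⟨y.1, (group_eq hF).symm ▸ y.2.1⟩, ?_⟩
        left_inv := fun g => rfl
        right_inv := fun y => rfl }
    · have h := congrArg Subtype.val (Subgroup.mem_centralizer_singleton_iff.1 g.2)
      rw [Subgroup.coe_mul, Subgroup.coe_mul, hmk] at h
      exact h.symm
    · rw [Subgroup.mem_centralizer_singleton_iff]
      refine Subtype.ext ?_
      rw [Subgroup.coe_mul, Subgroup.coe_mul, hmk]
      exact y.2.2.symm
  refine ⟨mk T₁.e, mk T₂.e, hord _ hne₁, hord _ hne₂, ?_, ?_, (hcard T₁ hv₁).trans hn₁,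
    (hcard T₂ hv₂).trans hn₂⟩
  · intro h
    obtain ⟨g, hg⟩ := isConj_iff.1 h
    refine hn ?_
    rw [← hn₁, ← hn₂, ← hcard T₁ hv₁, ← hcard T₂ hv₂]
    refine Nat.card_congr
      { toFun := fun y => ⟨g * y.1 * g⁻¹, ?_⟩
        invFun := fun y => ⟨g⁻¹ * y.1 * g, ?_⟩
        left_inv := fun y => Subtype.ext (by simp [mul_assoc])
        right_inv := fun y => Subtype.ext (by simp [mul_assoc]) }
    · have hy := Subgroup.mem_centralizer_singleton_iff.1 y.2
      rw [Subgroup.mem_centralizer_singleton_iff, ← hg]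
      calc g * y.1 * g⁻¹ * (g * mk T₁.e * g⁻¹) = g * (y.1 * mk T₁.e) * g⁻¹ := by simp [mul_assoc]
        _ = _ := by rw [hy]; simp [mul_assoc]
    · have hy : y.1 * (g * mk T₁.e * g⁻¹) = g * mk T₁.e * g⁻¹ * y.1 := by
        rw [hg]
        exact Subgroup.mem_centralizer_singleton_iff.1 y.2
      rw [Subgroup.mem_centralizer_singleton_iff]
      calc g⁻¹ * y.1 * g * mk T₁.e = g⁻¹ * (y.1 * (g * mk T₁.e * g⁻¹)) * g := by simp [mul_assoc]
        _ = _ := by rw [hy]; simp [mul_assoc]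
  intro u hu
  have hu2 : (u : GL D.Idx F) * u = 1 := by
    rw [← Subgroup.coe_mul, ← sq, ← hu, pow_orderOf_eq_one, Subgroup.coe_one]
  have hu1 : u ≠ 1 := fun h => by rw [h, orderOf_one] at hu; omega
  have hodd : ∀ v ∈ (glSys hF).Ubar, Odd (orderOf v) := by
    intro v hv
    have h1 : orderOf (⟨v, hv⟩ : ↥((glSys hF).Ubar)) ∣ Nat.card ↥((glSys hF).Ubar) := orderOf_dvd_natCard _
    rw [← Subgroup.orderOf_coe] at h1
    refine Odd.of_dvd_nat ?_ h1
    rw [show (glSys hF).Ubar = (glSys hF).US (posSet D) from rfl, (glSys hF).card_US hR hR.posSet_closed]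
    exact (Nat.card_eq_fintype_card (α := F) ▸ hq).pow
  obtain ⟨g₁, hg₁, h, hh, w, hconj, hsq⟩ := exists_conj_monomial (glSys hF) hF hR hodd
    (group_eq hF ▸ u.2) hu2
  obtain ⟨c₀, hc₀⟩ := exists_tauC hF hR hh
  obtain ⟨hk, hkdef⟩ : ∃ hk, hk = Matrix.GeneralLinearGroup.map (n := D.Idx) f h := ⟨_, rfl⟩
  have hkH : hk ∈ (glSys hS).Hbar := by
    rw [hkdef, ← hc₀, tauC, Chev.FieldFix.map_tau hF hS hR f]
    exact tauC_mem hS hR _
  have hk2 : hk * (glSys hS).nW w * (hk * (glSys hS).nW w) = 1 := by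
    rw [hkdef, ← Chev.FieldFix.map_nW hF hS f w, ← map_mul, ← map_mul, hsq, map_one]
  have hroot : ∀ x : AlgebraicClosure F, ∃ y, y * y = x := fun x => by
    obtain ⟨y, hy⟩ := IsAlgClosed.exists_eq_mul_self x
    exact ⟨y, hy.symm⟩
  obtain ⟨g₂, hg₂, hmemH⟩ := exists_conj_Hbar (glSys hS) hS hR hroot h2
    (fun r hr a ha x => nEl_mul_x hD.valid hS hR hr ha x) _ w hk le_rfl hkH hk2
  obtain ⟨c, hc⟩ := exists_tauC hS hR hmemH
  obtain ⟨g₀, hg₀def⟩ : ∃ g₀, g₀ = g₂ * Matrix.GeneralLinearGroup.map (n := D.Idx) f g₁ := ⟨_, rfl⟩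
  have hG₁ : Matrix.GeneralLinearGroup.map (n := D.Idx) f g₁ ∈ (glSys hS).Gbar := by
    rw [← group_eq hS]
    exact map_group_le D f ⟨g₁, (group_eq hF).symm ▸ hg₁, rfl⟩
  have hg₀ : g₀ ∈ (glSys hS).Gbar := hg₀def ▸ mul_mem hg₂ hG₁
  have hcu : tauC hS hR c = g₀ * ι u * g₀⁻¹ := by
    rw [hc, hkdef, ← Chev.FieldFix.map_nW hF hS f w, ← map_mul, ← hconj, hg₀def, hιval]
    simp [mul_assoc]
  have hcsq : c ^ 2 = 1 := by
    refine tauC_injective hS hR hD.unimod ?_
    rw [map_pow, map_one, hcu, conj_pow, ← map_pow, ← hu, pow_orderOf_eq_one, map_one]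
    simp
  have hc1 : c ≠ 1 := fun e => hu1 (hι (by
    rw [map_one]
    rw [e, map_one] at hcu
    calc ι u = g₀⁻¹ * (g₀ * ι u * g₀⁻¹) * g₀ := by simp [mul_assoc]
      _ = 1 := by rw [← hcu]; simp))
  obtain ⟨e', he'def⟩ : ∃ e' : List ℤ, e' = List.ofFn fun i => if c i = 1 then (0 : ℤ) else 1 := ⟨_, rfl⟩
  have hce : c = sgn D _ e' := by
    funext i
    have hi : e'.getD i 0 = if c i = 1 then (0 : ℤ) else 1 := by
      rw [he'def, List.getD_eq_getElem _ _ (by simp), List.getElem_ofFn]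
    rw [sgn, hi]
    split_ifs with h1
    · rw [h1, zpow_zero]
    · rw [zpow_one]
      have h3 : (c i : AlgebraicClosure F) ^ 2 = 1 := by
        rw [← Units.val_pow_eq_pow_val, show c i ^ 2 = 1 from congrFun hcsq i, Units.val_one]
      rcases sq_eq_one_iff.1 h3 with h4 | h4
      · exact absurd (Units.ext h4) h1
      · exact Units.ext (by simpa using h4)
  have hvec : e' ∈ vecs D.rank := by
    have := mem_vecs e' fun x hx => by
      rw [he'def, List.mem_ofFn] at hx
      obtain ⟨i, rfl⟩ := hx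
      split_ifs <;> simp
    rwa [show e'.length = D.rank by rw [he'def, List.length_ofFn]] at this
  have hne : ∃ x ∈ e', x ≠ 0 := by
    obtain ⟨i, hi⟩ := Function.ne_iff.1 hc1
    refine ⟨1, ?_, one_ne_zero⟩
    rw [he'def, List.mem_ofFn]
    exact ⟨i, if_neg hi⟩
  obtain ⟨e, d, he, hpar⟩ := coverOK_spec hD hR hcov hvec hne
  obtain ⟨d', hd'⟩ := exists_tauC hS hR
    ((glSys hS).nW_conj_Hbar hS hR d (tauC_mem hS hR (sgn D (AlgebraicClosure F) e)))
  have e1 : (glSys hS).nW d * tauC hS hR (sgn D _ e) = tauC hS hR d' * (glSys hS).nW d := by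
    rw [hd', inv_mul_cancel_right]
  have hd'c : d' = c := by
    rw [← mul_inv_eq_one]
    have hm : d' * c⁻¹ ∈ rootKer D (AlgebraicClosure F) := by
      rw [mem_rootKer_iff]
      intro l
      have hl := hR.simple_lt l l.2
      have h5 := chr_of_conj hS hR d e1 (hR.act_lt d.reverse hl)
      rw [hR.act_act_reverse d hl] at h5
      rw [chr_mul, chr_inv, mul_inv_eq_one, h5, hce, chr_sgn_val, chr_sgn_val, hpar l]
    rwa [Chev.FieldFix.rootKer_eq_bot hD.unimod, Subgroup.mem_bot] at hm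
  rw [hd'c, hcu] at e1
  obtain ⟨g, hgdef⟩ : ∃ g, g = g₀⁻¹ * (glSys hS).nW d := ⟨_, rfl⟩
  have hgG : g ∈ (glSys hS).Gbar := by
    refine hgdef ▸ mul_mem (inv_mem hg₀) ?_
    rw [(glSys hS).Gbar_eq hR hS]
    exact Subgroup.mem_sup_right ((glSys hS).nW_mem_Nbar d)
  have hgu : g * hInv hS hR e = ι u * g := by
    rw [hgdef, mul_assoc, hInv, e1]
    simp [mul_assoc]
  obtain ⟨n, hndef⟩ : ∃ n, n = g⁻¹ * μ g := ⟨_, rfl⟩
  have hnG : n ∈ (glSys hS).Gbar := by
    refine hndef ▸ mul_mem (inv_mem hgG) ?_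
    rw [← group_eq hS] at hgG ⊢
    exact hμdef ▸ map_group_le D φ ⟨g, hgG, rfl⟩
  have hμh : μ (hInv hS hR e) = hInv hS hR e := hμdef ▸ map_hInv hS hS hR φ e
  have hnc : hInv hS hR e * n = n * hInv hS hR e := by
    have h5 := congrArg μ hgu
    rw [map_mul, map_mul, hμh, hιfix] at h5
    rw [hndef]
    calc hInv hS hR e * (g⁻¹ * μ g) = g⁻¹ * (g * hInv hS hR e) * g⁻¹ * μ g := by simp [mul_assoc]
      _ = g⁻¹ * (ι u * μ g) := by rw [hgu]; simp [mul_assoc]
      _ = _ := by rw [← h5]; simp [mul_assoc]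
  obtain ⟨a, ha, hac, hae⟩ : ∃ a ∈ (glSys hS).Gbar, hInv hS hR e * a = a * hInv hS hR e ∧ n = a⁻¹ * μ a := by
    subst hμdef
    rcases he with rfl | rfl
    · exact cent_lang hD hS hR hv₁ hZ₁ h2 φ q hq2 hφ hnG hnc
    · exact cent_lang hD hS hR hv₂ hZ₂ h2 φ q hq2 hφ hnG hnc
  obtain ⟨g', hg'⟩ : ∃ g', ι g' = g * a⁻¹ := by
    refine hsurj _ (by rw [group_eq hS]; exact mul_mem hgG (inv_mem ha)) ?_
    have h6 : μ g = g * n := by rw [hndef, mul_inv_cancel_left]
    rw [map_mul, map_inv, h6, hae, mul_assoc, mul_assoc, mul_inv_cancel, mul_one]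
  have hfin : g' * mk e * g'⁻¹ = u := by
    refine hι ?_
    rw [map_mul, map_mul, map_inv, hg', hιmk]
    calc g * a⁻¹ * hInv hS hR e * (g * a⁻¹)⁻¹ = g * (a⁻¹ * (hInv hS hR e * a)) * g⁻¹ := by simp [mul_assoc]
      _ = ι u := by rw [hac, inv_mul_cancel_left, hgu, mul_inv_cancel_right]
  have hcj : IsConj u (mk e) := (isConj_iff.2 ⟨g', hfin⟩).symm
  rcases he with rfl | rfl
  exacts [Or.inl hcj, Or.inr hcj]

end Cfsg.Agent.Lang
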