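import Cfsg.Agent.Lang.InvE8Data

/-! Kernel checks on the tables of the involution classes of type E8 (owner: helper32; generated). -/

set_option autoImplicit false

namespace Cfsg.Agent.Lang

open Cfsg.Lie
open Cfsg.Agent.Chev (certE8)

namespace InvE8

theorem rootData : RootData chevE8 certE8 where
  valid := Cfsg.Agent.Chev.validE8
  unimod := ⟨fun i j => (binv.getD i []).getD j 0, by decide +kernel⟩
  inj := by decide +kernel

set_option maxHeartbeats 0 in
set_option maxRecDepth 100000 in
theorem valid1 : tab1.Valid chevE8 certE8 where
  gens_ok := by decide +kernel
  trans_head := by decide +kernel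
  trans_moves := by decide +kernel
  edge_ok := by decide +kernel
  levels_ok := by decide +kernel
  levels_len := by decide +kernel
  last_ok := by decide +kernel

set_option maxHeartbeats 0 in
theorem corOK1 : CorOK tab1 z1 := corOK_of_check (cor := cor1) (by decide +kernel)

set_option maxHeartbeats 0 in
theorem moves1 : ((List.range chevE8.nroots).any fun s => !parC chevE8 certE8 tab1.e s) = true := by
  decide +kernel

set_option maxHeartbeats 0 in
theorem expList1 : tab1.levels.map (expList chevE8 certE8) = exps1 := by decide +kernel

set_option maxHeartbeats 0 in
theorem lastCard1 : (lastP chevE8 [] tab1.levels).toFinset.card = 56 := by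
  decide +kernel

set_option maxHeartbeats 0 in
set_option maxRecDepth 100000 in
theorem valid2 : tab2.Valid chevE8 certE8 where
  gens_ok := by decide +kernel
  trans_head := by decide +kernel
  trans_moves := by decide +kernel
  edge_ok := by decide +kernel
  levels_ok := by decide +kernel
  levels_len := by decide +kernel
  last_ok := by decide +kernel

set_option maxHeartbeats 0 in
theorem corOK2 : CorOK tab2 z2 := corOK_of_check (cor := cor2) (by decide +kernel)

set_option maxHeartbeats 0 in
theorem moves2 : ((List.range chevE8.nroots).any fun s => !parC chevE8 certE8 tab2.e s) = true := by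
  decide +kernel

set_option maxHeartbeats 0 in
theorem expList2 : tab2.levels.map (expList chevE8 certE8) = exps2 := by decide +kernel

set_option maxHeartbeats 0 in
theorem lastCard2 : (lastP chevE8 [] tab2.levels).toFinset.card = 64 := by
  decide +kernel

set_option maxHeartbeats 0 in
theorem coverAll : coverOK chevE8 certE8 tab1.e tab2.e cov = true := by decide +kernel

end InvE8

end Cfsg.Agent.Lang
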