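import Cfsg.Agent.ChevGrp.Cells

/-!
Involutions of the Chevalley groups in odd characteristic: conjugate into the monomial subgroup, and into the
diagonal subgroup when square roots exist (owner: helper32).
-/

set_option autoImplicit false

namespace Cfsg.Agent.Lang

open Cfsg.Lie Cfsg.Agent.ChevGrp

variable {D : ChevalleyDatum} {F : Type*} [Field F] {G : Type*} [Group G] {len : ℕ → ℕ}

theorem invCount_reverse (hR : RootTable D len) (v : List (Fin D.rank)) :
    invCount D v.reverse = invCount D v := by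
  have key : ∀ v : List (Fin D.rank), invCount D v ≤ invCount D v.reverse := by
    intro v
    rw [invCount_eq, invCount_eq]
    refine Finset.card_le_card_of_injOn (fun r => D.neg (act D v r)) (fun r hr => ?_) (fun a ha b hb e => ?_)
    · rw [Finset.mem_coe, mem_invFin] at hr ⊢
      have hlt := hR.act_lt v hr.1.1
      refine ⟨(hR.pos_neg_iff hlt).2 hr.2, ?_⟩
      rw [hR.act_neg _ hlt, hR.act_reverse_act v hr.1.1]
      exact (hR.neg_neg_iff hr.1.1).2 hr.1
    · rw [Finset.mem_coe, mem_invFin] at ha hb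
      have h1 := hR.act_lt v ha.1.1
      have h2 := hR.act_lt v hb.1.1
      have e2 : act D v a = act D v b := by rw [← hR.neg_neg_root h1, show D.neg (act D v a) = D.neg (act D v b) from e, hR.neg_neg_root h2]
      exact hR.act_inj v ha.1.1 hb.1.1 e2
  refine le_antisymm ?_ (key v)
  have := key v.reverse
  rwa [List.reverse_reverse] at this

variable (S : Sys D F G)

/-- An involution is conjugate to an involution of the monomial subgroup, if `U` has odd exponent. -/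
theorem exists_conj_monomial (hS : Rules D F) (hR : RootTable D len) (hodd : ∀ u ∈ S.Ubar, Odd (orderOf u))
    {s : G} (hs : s ∈ S.Gbar) (h2 : s * s = 1) :
    ∃ g ∈ S.Gbar, ∃ h ∈ S.Hbar, ∃ w : List (Fin D.rank),
      g * s * g⁻¹ = h * S.nW w ∧ (h * S.nW w) * (h * S.nW w) = 1 := by
  obtain ⟨b, hb, w, -, v, hv, rfl⟩ := S.mem_NF hS hR hs
  obtain ⟨u, hu, h, hh, rfl⟩ := (S.mem_Bbar hS hR).1 hb
  have hvU : v ∈ S.Ubar := S.US_mono (fun r hr => hr.1) hv
  have hUG : S.Ubar ≤ S.Gbar := by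
    rw [S.Gbar_eq hR hS]
    exact S.Ubar_le_Bbar.trans le_sup_left
  obtain ⟨n, hndef⟩ : ∃ n, n = h * S.nW w := ⟨_, rfl⟩
  obtain ⟨z₀, hz₀def⟩ : ∃ z₀, z₀ = v * u := ⟨_, rfl⟩
  have hz₀ : z₀ ∈ S.Ubar := hz₀def ▸ mul_mem hvU hu
  have e0 : v * (u * h * S.nW w * v) * v⁻¹ = z₀ * n := by simp [hz₀def, hndef, mul_assoc]
  have hsq : (z₀ * n) * (z₀ * n) = 1 := by
    rw [← e0]
    calc v * (u * h * S.nW w * v) * v⁻¹ * (v * (u * h * S.nW w * v) * v⁻¹)
        = v * ((u * h * S.nW w * v) * (u * h * S.nW w * v)) * v⁻¹ := by simp [mul_assoc]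
      _ = 1 := by rw [h2]; simp
  obtain ⟨k, hk, ek⟩ : ∃ k ∈ S.Hbar, (S.nW w)⁻¹ = k * S.nW w.reverse :=
    ⟨(S.nW w.reverse * S.nW w)⁻¹, inv_mem (by simpa using S.nW_reverse_mem hS hR w.reverse), by simp⟩
  have hact : ∀ r < D.nroots, act D w r = act D w.reverse r := by
    have e1 : z₀ * n = n⁻¹ * z₀⁻¹ := by
      calc z₀ * n = (z₀ * n)⁻¹ := eq_inv_of_mul_eq_one_left hsq
        _ = _ := mul_inv_rev _ _
    obtain ⟨k', hk', ek'⟩ : ∃ k' ∈ S.Hbar, k * S.nW w.reverse * h⁻¹ = S.nW w.reverse * k' := by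
      refine ⟨(S.nW w.reverse)⁻¹ * k * S.nW w.reverse * h⁻¹, ?_, by simp [mul_assoc]⟩
      refine mul_mem ?_ (inv_mem hh)
      have := (Subgroup.mem_normalizer_iff''.1 (S.Nbar_le_normalizer hS hR (S.nW_mem_Nbar w.reverse)) k).1 hk
      exact this
    refine S.act_eq_of_bruhat hS hR (b := z₀ * h) (b' := k' * z₀⁻¹)
      (mul_mem (S.Ubar_le_Bbar hz₀) (S.Hbar_le_Bbar hh))
      (mul_mem (S.Hbar_le_Bbar hk') (S.Ubar_le_Bbar (inv_mem hz₀))) (congrArg S.θ ?_)
    rw [← mul_assoc, ← ek', ← ek, mul_assoc z₀, ← hndef, e1, hndef, mul_inv_rev]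
  have hww : S.nW (w ++ w) ∈ S.Hbar := by
    refine S.nW_mem_Hbar_of_act hS hR fun r hr => ?_
    rw [act_append, hact _ (hR.act_lt w hr.1), hR.act_reverse_act w hr.1]
    exact hr
  have hnn : n * n ∈ S.Hbar := by
    rw [S.nW_append] at hww
    have e : n * n = h * (S.nW w * h * (S.nW w)⁻¹) * (S.nW w * S.nW w) := by simp [hndef, mul_assoc]
    rw [e]
    exact mul_mem (mul_mem hh (S.nW_conj_Hbar hS hR w hh)) hww
  -- split off the inversion part
  have hA : UClosed D len (htHom D) (posSet D \ invSet D w) := by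
    refine hR.posSet_closed.subset_closed Set.sdiff_subset fun r hr t ht hne c hc => ?_
    refine ⟨hR.posSet_closed.closed r hr.1 t ht.1 hne c hc, fun hcw => ?_⟩
    obtain ⟨hclt, hi, hj, hvec⟩ := hR.commTerms_vec r hr.1.1 t ht.1.1 hne
      (hR.posSet_closed.ne_neg hR hr.1 ht.1) c hc
    have hpr : D.IsPosRoot (act D w r) :=
      (hR.sign _ (hR.act_lt w hr.1.1)).resolve_right fun hn => hr.2 ⟨hr.1, hn⟩
    have hpt : D.IsPosRoot (act D w t) :=
      (hR.sign _ (hR.act_lt w ht.1.1)).resolve_right fun hn => ht.2 ⟨ht.1, hn⟩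
    have e := hR.act_lin w hr.1.1 ht.1.1 hclt hvec
    have h1 := (hR.neg_iff_ht (hR.act_lt w hclt)).1 hcw.2
    unfold ChevGrp.ht at h1
    rw [e, map_add, map_zsmul, map_zsmul, smul_eq_mul, smul_eq_mul] at h1
    have h3 := (hR.pos_iff_ht hpr.1).1 hpr
    have h4 := (hR.pos_iff_ht hpt.1).1 hpt
    unfold ChevGrp.ht at h3 h4
    have hi' : (1 : ℤ) ≤ (c.2.2.1 : ℤ) := by exact_mod_cast hi
    have hj' : (1 : ℤ) ≤ (c.2.2.2 : ℤ) := by exact_mod_cast hj
    nlinarith
  obtain ⟨a, ha, b₁, hb₁, rfl⟩ := S.US_eq_mul hR hR.posSet_closed hA (hR.inv_closed w)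
    (Set.ext fun r => ⟨fun h => h.elim (fun h => h.1) (fun h => h.1),
      fun h => (em (r ∈ invSet D w)).elim Or.inr fun e => Or.inl ⟨h, e⟩⟩)
    (Set.disjoint_left.2 fun r h1 h2 => h1.2 h2) hz₀
  obtain ⟨c, -, hc⟩ := S.conjP_nW hS hR w
  have hwa : S.nW w * a * (S.nW w)⁻¹ ∈ S.Ubar := by
    refine Subgroup.closure_induction ?_ ?_ ?_ ?_ ha
    · rintro _ ⟨r, hr, t, rfl⟩
      rw [hc r hr.1.1]
      exact S.x_mem_US (T := posSet D)
        ((hR.sign _ (hR.act_lt w hr.1.1)).resolve_right fun hn => hr.2 ⟨hr.1, hn⟩) _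
    · simp [one_mem]
    · intro x y _ _ hx hy
      have := mul_mem hx hy
      simpa [mul_assoc] using this
    · intro x _ hx
      have := inv_mem hx
      simpa [mul_assoc] using this
  have hna : n * a * n⁻¹ ∈ S.Ubar := by
    have := (Subgroup.mem_normalizer_iff.1 (S.Hbar_le_normalizer_Ubar hS hR hh) _).1 hwa
    simpa [hndef, mul_assoc] using this
  have hconjB : n * (a * b₁) * n⁻¹ = (a * b₁)⁻¹ * (n * n)⁻¹ := by
    calc n * (a * b₁) * n⁻¹ = (a * b₁)⁻¹ * ((a * b₁ * n) * (a * b₁ * n)) * n⁻¹ * n⁻¹ := by simp [mul_assoc]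
      _ = _ := by rw [hsq, mul_one, mul_inv_rev n n, mul_assoc]
  have hnb : b₁ = 1 := by
    have h1 : n * b₁ * n⁻¹ ∈ S.Bbar := by
      have e : n * b₁ * n⁻¹ = (n * a * n⁻¹)⁻¹ * ((a * b₁)⁻¹ * (n * n)⁻¹) := by
        rw [← hconjB]; simp [mul_assoc]
      rw [e]
      exact mul_mem (inv_mem (S.Ubar_le_Bbar hna))
        (mul_mem (inv_mem (S.Ubar_le_Bbar hz₀)) (inv_mem (S.Hbar_le_Bbar hnn)))
    have h1' : S.nW w * b₁ * (S.nW w)⁻¹ ∈ S.Bbar := by
      have e : S.nW w * b₁ * (S.nW w)⁻¹ = h⁻¹ * (n * b₁ * n⁻¹) * h := by simp [hndef, mul_assoc]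
      rw [e]
      exact mul_mem (mul_mem (inv_mem (S.Hbar_le_Bbar hh)) h1) (S.Hbar_le_Bbar hh)
    have h3 : S.nW w * b₁ * (S.nW w)⁻¹ ∈ S.Vbar ⊓ S.Bbar := ⟨S.nW_conj_neg hS hR w hb₁, h1'⟩
    rw [S.Vbar_inf_Bbar hS hR, Subgroup.mem_bot, mul_inv_eq_one] at h3
    exact mul_left_cancel (a := S.nW w) (by rw [h3, mul_one])
  subst hnb
  rw [mul_one] at hz₀def hz₀ e0 hsq hconjB
  obtain ⟨hθ, hn2⟩ : n * a * n⁻¹ = a⁻¹ ∧ (1 : G) = (n * n)⁻¹ :=
    S.Bbar_decomp_unique hS hR hna (inv_mem hz₀) (one_mem _) (inv_mem hnn)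
      (by rw [mul_one]; exact hconjB)
  obtain ⟨m, hm⟩ := hodd a hz₀
  obtain ⟨z, hzdef⟩ : ∃ z, z = a ^ (m + 1) := ⟨_, rfl⟩
  have hzU : z ∈ S.Ubar := hzdef ▸ pow_mem hz₀ _
  have hzz : z * z = a := by
    rw [hzdef, ← pow_add, show m + 1 + (m + 1) = orderOf a + 1 by omega, pow_succ, pow_orderOf_eq_one, one_mul]
  have hnz : n * z * n⁻¹ = z⁻¹ := by
    rw [hzdef, ← conj_pow, hθ, inv_pow]
  refine ⟨z⁻¹ * v, mul_mem (inv_mem (hUG hzU)) (hUG hvU), h, hh, w, ?_, ?_⟩
  · rw [← hndef]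
    calc z⁻¹ * v * (u * h * S.nW w * v) * (z⁻¹ * v)⁻¹ = z⁻¹ * (v * (u * h * S.nW w * v) * v⁻¹) * z := by
          simp [mul_assoc]
      _ = z⁻¹ * a * (n * z * n⁻¹) * n := by rw [e0]; simp [mul_assoc]
      _ = n := by rw [hnz, ← hzz]; simp [mul_assoc]
  · rw [← hndef]
    exact inv_eq_one.1 hn2.symm

/-- With square roots, an involution of the monomial subgroup is conjugate into the diagonal subgroup. -/
theorem exists_conj_Hbar (hS : Rules D F) (hR : RootTable D len) (hroot : ∀ x : F, ∃ y, y * y = x)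
    (h2 : (2 : F) ≠ 0)
    (hnx : ∀ r < D.nroots, ∀ a : F, a ≠ 0 → ∀ u : F, S.nEl r a * S.x r u = S.x (D.neg r) (-(u / a ^ 2)) * S.nEl r a) :
    ∀ (N : ℕ) (w : List (Fin D.rank)) (h : G), invCount D w ≤ N → h ∈ S.Hbar →
      (h * S.nW w) * (h * S.nW w) = 1 → ∃ g ∈ S.Gbar, g * (h * S.nW w) * g⁻¹ ∈ S.Hbar := by
  intro N
  induction N with
  | zero =>
    intro w h hN hh _
    refine ⟨1, one_mem _, ?_⟩
    rw [one_mul, inv_one, mul_one]
    refine mul_mem hh (S.nW_mem_Hbar_of_act hS hR fun r hr => ?_)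
    refine (hR.sign _ (hR.act_lt w hr.1)).resolve_right fun hn => ?_
    have : r ∈ invFin D w := (mem_invFin D w r).2 ⟨hr, hn⟩
    rw [invCount_eq, Nat.le_zero, Finset.card_eq_zero] at hN
    simp [hN] at this
  | succ N ih =>
    intro w h hN hh hsq
    have hNG : S.Nbar ≤ S.Gbar := by rw [S.Gbar_eq hR hS]; exact le_sup_right
    by_cases hall : ∀ i : Fin D.rank, D.IsPosRoot (act D w (D.simple i))
    · refine ih w h ?_ hh hsq
      have h0 : invFin D w = ∅ := Finset.eq_empty_of_forall_notMem fun r hr => by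
        obtain ⟨hpos, hn⟩ := (mem_invFin D w r).1 hr
        exact hR.not_pos_and_neg (hR.pos_of_simple_pos Set.univ (fun i _ => hall i)
          (r := r) ⟨hpos, hpos.1, fun j _ hj => absurd (Set.mem_univ j) hj⟩) hn
      rw [invCount_eq, h0, Finset.card_empty]
      omega
    push Not at hall
    obtain ⟨i, hi⟩ := hall
    obtain ⟨p, hpdef⟩ : ∃ p, p = D.simple i := ⟨_, rfl⟩
    have hp : p < D.nroots := hpdef ▸ hR.simple_lt i i.2
    obtain ⟨q, hqdef⟩ : ∃ q, q = act D w p := ⟨_, rfl⟩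
    have hq : D.IsNegRoot q := by
      rw [hqdef, hpdef]
      exact (hR.sign _ (hR.act_lt w (hR.simple_lt i i.2))).resolve_left hi
    obtain ⟨a, ha, hna⟩ : S.ConjP (h * S.nW w) w := by
      simpa using (S.conjP_Hbar hS hR hh).mul hR (S.conjP_nW hS hR w)
    obtain ⟨n, hndef⟩ : ∃ n, n = h * S.nW w := ⟨_, rfl⟩
    rw [← hndef] at hna hsq ⊢
    have hninv : n⁻¹ = n := inv_eq_of_mul_eq_one_right hsq
    have hact : act D w.reverse p = q := by
      have h1 : S.ConjP n w := ⟨a, ha, hna⟩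
      have h3 := Sys.ConjP.act_unique S hR (Sys.ConjP.inv hR h1) (hninv.symm ▸ h1) p hp
      rw [h3, hqdef]
    by_cases hqp : q = D.neg p
    · -- a rank one computation
      have hap : a p ≠ 0 := right_ne_zero_of_mul_eq_one (ha p hp)
      obtain ⟨e, he⟩ := hroot (a p)⁻¹
      have he0 : e ≠ 0 := fun e0 => by rw [e0, mul_zero] at he; exact inv_ne_zero hap he.symm
      obtain ⟨g, hgdef⟩ : ∃ g, g = S.x (D.neg p) (-(2 * e)⁻¹) * S.x p e := ⟨_, rfl⟩
      have hnp : D.neg p < D.nroots := hR.neg_lt p hp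
      have hgG : g ∈ S.Gbar := hgdef ▸
        mul_mem (Subgroup.subset_closure ⟨_, hnp, _, rfl⟩) (Subgroup.subset_closure ⟨_, hp, _, rfl⟩)
      have hc1 : a p * -e = -e⁻¹ := by
        have : a p * (e * e) = 1 := by rw [he, mul_inv_cancel₀ hap]
        calc a p * -e = -(a p * (e * e) * e⁻¹) := by field_simp
          _ = _ := by rw [this, one_mul]
      have hc2 : a (D.neg p) * (2 * e)⁻¹ = e / 2 := by
        have h3 : a (D.neg p) = e * e := by rw [he]; exact eq_inv_of_mul_eq_one_left (ha p hp)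
        rw [h3]
        field_simp
      have e1 : g * n * g⁻¹ = S.x (D.neg p) (-(2 * e)⁻¹) * S.x p e * S.x (D.neg p) (-e⁻¹) * S.x p (e / 2) * n := by
        have k1 : n * S.x p (-e) = S.x (D.neg p) (-e⁻¹) * n := by
          rw [← hc1, ← hqp, hqdef, ← hna p hp]
          simp
        have k2 : n * S.x (D.neg p) (2 * e)⁻¹ = S.x p (e / 2) * n := by
          have e3 := hna (D.neg p) hnp (2 * e)⁻¹
          rw [hR.act_neg w hp, ← hqdef, hqp, hR.neg_neg_root hp, hc2] at e3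
          rw [← e3]
          simp
        rw [hgdef, mul_inv_rev (S.x (D.neg p) _), S.x_inv hp, S.x_inv hnp, neg_neg]
        calc S.x (D.neg p) (-(2 * e)⁻¹) * S.x p e * n * (S.x p (-e) * S.x (D.neg p) (2 * e)⁻¹)
            = S.x (D.neg p) (-(2 * e)⁻¹) * S.x p e * (n * S.x p (-e)) * S.x (D.neg p) (2 * e)⁻¹ := by
              simp [mul_assoc]
          _ = S.x (D.neg p) (-(2 * e)⁻¹) * S.x p e * S.x (D.neg p) (-e⁻¹) * (n * S.x (D.neg p) (2 * e)⁻¹) := by
              rw [k1]; simp [mul_assoc]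
          _ = _ := by rw [k2]; simp [mul_assoc]
      have e2 : S.x (D.neg p) (-(2 * e)⁻¹) * S.x p e * S.x (D.neg p) (-e⁻¹) * S.x p (e / 2) = S.nEl p e := by
        have e3 := hnx p hp e he0 (e / 2)
        rw [show -(e / 2 / e ^ 2) = -(2 * e)⁻¹ by field_simp] at e3
        rw [eq_mul_inv_of_mul_eq e3.symm]
        have e4 : S.x p e * S.x (D.neg p) (-e⁻¹) = S.nEl p e * S.x p (-e) := by
          rw [Sys.nEl, ← S.x_inv hp, mul_inv_cancel_right]
        rw [mul_assoc _ (S.x p e), e4]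
        simp only [mul_assoc]
        rw [← mul_assoc (S.nEl p e)⁻¹, inv_mul_cancel, one_mul, S.x_add p hp, S.x_add p hp,
          show e / 2 + (-e + e / 2) = 0 by field_simp; ring, S.x_zero hp, mul_one]
      have e6 : g * n * g⁻¹ = (S.hEl p e * (S.nI i * h * (S.nI i)⁻¹)) * S.nW (i :: w) := by
        rw [e1, e2, hpdef, S.nEl_eq hR (hR.simple_lt i i.2), S.nW_cons, hndef]
        simp [Sys.nI, mul_assoc]
      have hcount : invCount D (i :: w) ≤ N := by
        have := hR.invCount_cons_neg i w (by rw [← hpdef, hact]; exact hq)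
        omega
      obtain ⟨g', hg', hmem⟩ := ih (i :: w) _ hcount
        (mul_mem (hpdef ▸ S.hEl_simple_mem i he0) (S.nI_conj_Hbar hS hR i hh))
        (by rw [← e6]
            calc g * n * g⁻¹ * (g * n * g⁻¹) = g * (n * n) * g⁻¹ := by simp [mul_assoc]
              _ = 1 := by rw [hsq]; simp)
      refine ⟨g' * g, mul_mem hg' hgG, ?_⟩
      rw [← e6] at hmem
      simpa [mul_assoc] using hmem
    · -- conjugation by a simple reflection
      obtain ⟨k, hk, ek⟩ := S.nI_inv_mem hS hR i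
      have hv : invCount D ([i] ++ w ++ [i]) + 1 ≤ invCount D w := by
        have h1 := hR.invCount_cons_neg i w (by rw [← hpdef, hact]; exact hq)
        have hq' : D.IsNegRoot (act D (i :: w) p) := by
          rw [act_cons, ← hqdef]
          refine (hR.pos_neg_iff (hR.reflect_lt i i.2 q hq.1)).1 ?_
          rw [← hR.reflect_neg i.2 hq.1]
          refine hR.reflect_pos i ((hR.pos_neg_iff hq.1).2 hq) fun e => hqp ?_
          rw [← hpdef] at e
          rw [← e, hR.neg_neg_root hq.1]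
        have h3 := hR.invCount_cons_neg i (i :: w).reverse (by rw [List.reverse_reverse, ← hpdef]; exact hq')
        rw [show i :: (i :: w).reverse = ([i] ++ w.reverse ++ [i]) by simp, invCount_reverse hR] at h3
        rw [← invCount_reverse hR ([i] ++ w ++ [i])]
        simp only [List.reverse_append, List.reverse_singleton, ← List.append_assoc]
        omega
      obtain ⟨h', hh', e'⟩ : ∃ h' ∈ S.Hbar, S.nI i * n * (S.nI i)⁻¹ = h' * S.nW ([i] ++ w ++ [i]) := by
        obtain ⟨k', hk', ek'⟩ : ∃ k' ∈ S.Hbar, S.nI i * n * k = k' * (S.nI i * n) := by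
          refine ⟨(S.nI i * n) * k * (S.nI i * n)⁻¹, ?_, by simp [mul_assoc]⟩
          have hN : S.nI i * n ∈ S.Nbar :=
            mul_mem (S.nI_mem_Nbar i) (hndef ▸ mul_mem (S.Hbar_le_Nbar hh) (S.nW_mem_Nbar w))
          exact (Subgroup.mem_normalizer_iff.1 (S.Nbar_le_normalizer hS hR hN) k).1 hk
        refine ⟨k' * (S.nI i * h * (S.nI i)⁻¹), mul_mem hk' (S.nI_conj_Hbar hS hR i hh), ?_⟩
        conv_lhs => rw [ek]
        rw [← mul_assoc, ek', S.nW_append, S.nW_append, S.nW_singleton, hndef]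
        simp [mul_assoc]
      obtain ⟨g', hg', hmem⟩ := ih ([i] ++ w ++ [i]) h' (by omega) hh' (by
        rw [← e']
        calc S.nI i * n * (S.nI i)⁻¹ * (S.nI i * n * (S.nI i)⁻¹) = S.nI i * (n * n) * (S.nI i)⁻¹ := by
              simp [mul_assoc]
          _ = 1 := by rw [hsq]; simp)
      refine ⟨g' * S.nI i, mul_mem hg' (hNG (S.nI_mem_Nbar i)), ?_⟩
      rw [← e'] at hmem
      simpa [mul_assoc] using hmem

end Cfsg.Agent.Lang
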